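import Cfsg.Agent.H73.Focal.Three.Module
import Mathlib

/-! Sections of a group mapping onto `SL₂` as modules. -/

set_option autoImplicit false

namespace Cfsg.Agent.H73.Focal

open Subgroup
open scoped commutatorElement
open Cfsg.Agent.H75.SL2Natural (xu yl V0 V1)

universe u

variable {G : Type u} [Group G] {F : Type} [Field F] {p : ℕ}

/-- The module of a section. -/
theorem exists_sect [Finite G] (φ : G →* Matrix.SpecialLinearGroup (Fin 2) F) (hφ : Function.Surjective φ)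
    (U W : Subgroup G) [U.Normal] [W.Normal] (hc : ∀ a ∈ U, ∀ b ∈ U, ⁅a, b⁆ ∈ W)
    (hp : ∀ a ∈ U, a ^ p ∈ W) (hk : ∀ k : G, φ k = 1 ∨ φ k = -1 → ∀ a ∈ U, ⁅k, a⁆ ∈ W) :
    ∃ (A : Type u) (_ : AddCommGroup A) (_ : Finite A) (v : ↥U → A)
      (ρ : Matrix.SpecialLinearGroup (Fin 2) F →* AddMonoid.End A),
      Function.Surjective v ∧ (∀ a b, v (a * b) = v a + v b) ∧ (∀ a : ↥U, v a = 0 ↔ (a : G) ∈ W) ∧
      (∀ a : A, p • a = 0) ∧ (∀ a : A, ρ (-1) a = a) ∧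
      ∀ g (a : ↥U), ρ (φ g) (v a) = v ⟨g * a * g⁻¹, Subgroup.Normal.conj_mem inferInstance _ a.2 g⟩ := by
  classical
  set π := QuotientGroup.mk' W
  set Ub := U.map π
  haveI : Ub.Normal := (inferInstance : U.Normal).map π (QuotientGroup.mk'_surjective W)
  haveI : IsMulCommutative Ub := ⟨⟨by
    rintro ⟨_, a, ha, rfl⟩ ⟨_, b, hb, rfl⟩
    refine Subtype.ext (commutatorElement_eq_one_iff_mul_comm.1 ?_)
    rw [← map_commutatorElement]
    exact (QuotientGroup.eq_one_iff _).2 (hc a ha b hb)⟩⟩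
  open scoped IsMulCommutative in
  let iC : CommGroup ↥Ub := inferInstance
  let ρ₀ : G →* AddMonoid.End (Additive ↥Ub) :=
    { toFun := fun g => MonoidHom.toAdditive (MulAut.conjNormal (π g) : ↥Ub ≃* ↥Ub).toMonoidHom
      map_one' := by
        refine AddMonoidHom.ext fun a => ?_
        show Additive.ofMul ((MulAut.conjNormal (π 1) : MulAut ↥Ub) (Additive.toMul a)) = a
        simp
      map_mul' := fun g k => by
        refine AddMonoidHom.ext fun a => ?_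
        show Additive.ofMul ((MulAut.conjNormal (π (g * k)) : MulAut ↥Ub) (Additive.toMul a)) =
          Additive.ofMul ((MulAut.conjNormal (π g) : MulAut ↥Ub) ((MulAut.conjNormal (π k) : MulAut ↥Ub) (Additive.toMul a)))
        rw [map_mul, map_mul, MulAut.mul_apply] }
  let v : ↥U → Additive ↥Ub := fun a => Additive.ofMul ⟨π a, mem_map_of_mem π a.2⟩
  have hext : ∀ {a b : Additive ↥Ub},
      ((Additive.toMul a : ↥Ub) : G ⧸ W) = ((Additive.toMul b : ↥Ub) : G ⧸ W) → a = b :=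
    fun e => Additive.toMul.injective (Subtype.ext e)
  have hv : ∀ a, ∃ x, v x = a := fun a => by
    obtain ⟨x, hx, e⟩ := (Additive.toMul a : ↥Ub).2
    exact ⟨⟨x, hx⟩, hext e⟩
  have hρ₀ : ∀ g (a : ↥U), ρ₀ g (v a) = v ⟨g * a * g⁻¹, Subgroup.Normal.conj_mem inferInstance _ a.2 g⟩ :=
    fun g a => hext (by
      show π g * π a * (π g)⁻¹ = π (g * a * g⁻¹)
      rw [map_mul, map_mul, map_inv])
  have hfix : ∀ k, φ k = 1 ∨ φ k = -1 → ρ₀ k = 1 := fun k hkk => by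
    refine AddMonoidHom.ext fun a => ?_
    obtain ⟨x, rfl⟩ := hv a
    show ρ₀ k (v x) = v x
    rw [hρ₀]
    refine hext (mul_inv_eq_one.1 ?_)
    show π (k * x * k⁻¹) * (π (x : G))⁻¹ = 1
    rw [← map_inv, ← map_mul]
    exact (QuotientGroup.eq_one_iff _).2 (hk k hkk x x.2)
  let ρ : Matrix.SpecialLinearGroup (Fin 2) F →* AddMonoid.End (Additive ↥Ub) :=
    (Units.coeHom _).comp (φ.liftOfSurjective hφ ⟨ρ₀.toHomUnits, fun k hkk => by
      rw [MonoidHom.mem_ker] at hkk ⊢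
      exact Units.ext (hfix k (Or.inl hkk))⟩)
  have hρ : ∀ g, ρ (φ g) = ρ₀ g := fun g => by
    show ((φ.liftOfSurjective hφ _ (φ g) : (AddMonoid.End (Additive ↥Ub))ˣ) : AddMonoid.End (Additive ↥Ub)) = _
    rw [MonoidHom.liftOfRightInverse_comp_apply]
    rfl
  refine ⟨Additive ↥Ub, inferInstance, inferInstance, v, ρ, hv, fun a b => hext (map_mul π (a : G) (b : G)),
    fun a => ⟨fun e => (QuotientGroup.eq_one_iff _).1
      (congrArg (fun b : Additive ↥Ub => ((Additive.toMul b : ↥Ub) : G ⧸ W)) e),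
      fun h => hext ((QuotientGroup.eq_one_iff _).2 h)⟩,
    fun a => ?_, fun a => ?_, fun g a => by rw [hρ, hρ₀]⟩
  · obtain ⟨x, rfl⟩ := hv a
    refine hext ?_
    show ((⟨π (x : G), mem_map_of_mem π x.2⟩ ^ p : ↥Ub) : G ⧸ W) = 1
    rw [SubmonoidClass.coe_pow, ← map_pow]
    exact (QuotientGroup.eq_one_iff _).2 (hp x x.2)
  · obtain ⟨k, hk'⟩ := hφ (-1)
    rw [← hk', hρ, hfix k (Or.inr hk')]
    rfl

variable [Finite G] [Fintype F] [Fact p.Prime] [CharP F p]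

/-- An irreducible section on which the preimages of transvections are mutually quadratic. -/
theorem sect_quadratic (hp2 : p ≠ 2) (φ : G →* Matrix.SpecialLinearGroup (Fin 2) F) (hφ : Function.Surjective φ)
    (U W : Subgroup G) [U.Normal] [W.Normal] (hWU : W ≤ U) (hc : ∀ a ∈ U, ∀ b ∈ U, ⁅a, b⁆ ∈ W)
    (hp : ∀ a ∈ U, a ^ p ∈ W) (hk : ∀ k : G, φ k = 1 ∨ φ k = -1 → ∀ a ∈ U, ⁅k, a⁆ ∈ W)
    (hirr : ∀ H : Subgroup G, H.Normal → W ≤ H → H ≤ U → H = W ∨ H = U)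
    (As : Set G) (hAs : ∀ c : F, ∃ a ∈ As, φ a = xu c)
    (hq : ∀ a ∈ As, ∀ b ∈ As, ∀ w ∈ U, ⁅b, ⁅a, w⁆⁆ ∈ W) : ∀ g : G, ∀ w ∈ U, ⁅g, w⁆ ∈ W := by
  obtain ⟨A, iA, iAf, v, ρ, hv, hmul, hker, hA, hneg, hconj⟩ := exists_sect φ hφ U W hc hp hk
  have h0 : v 1 = 0 := (hker 1).2 W.one_mem
  have hinv : ∀ a, v a⁻¹ = -v a := fun a =>
    eq_neg_of_add_eq_zero_left (by rw [← hmul, inv_mul_cancel, h0])
  have hcomm : ∀ (g : G) (w : ↥U), ρ (φ g) (v w) - v w = v ⟨⁅g, (w : G)⁆, by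
      rw [commutatorElement_def]; exact U.mul_mem (Subgroup.Normal.conj_mem inferInstance _ w.2 g) (U.inv_mem w.2)⟩ :=
    fun g w => by
      rw [hconj, sub_eq_add_neg, ← hinv, ← hmul]
      rfl
  have hirr' : ∀ H : AddSubgroup A, (∀ g, ∀ a ∈ H, ρ g a ∈ H) → H = ⊥ ∨ H = ⊤ := by
    intro H hH
    let K : Subgroup G :=
      { carrier := {x | ∃ h : x ∈ U, v ⟨x, h⟩ ∈ H}
        one_mem' := ⟨U.one_mem, by
          rw [show (⟨1, U.one_mem⟩ : ↥U) = 1 from rfl, h0]; exact H.zero_mem⟩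
        mul_mem' := fun {x y} hx hy => by
          obtain ⟨hx, hx'⟩ := hx
          obtain ⟨hy, hy'⟩ := hy
          refine ⟨U.mul_mem hx hy, ?_⟩
          rw [show (⟨x * y, U.mul_mem hx hy⟩ : ↥U) = ⟨x, hx⟩ * ⟨y, hy⟩ from rfl, hmul]
          exact H.add_mem hx' hy'
        inv_mem' := fun {x} hx => by
          obtain ⟨hx, hx'⟩ := hx
          refine ⟨U.inv_mem hx, ?_⟩
          rw [show (⟨x⁻¹, U.inv_mem hx⟩ : ↥U) = ⟨x, hx⟩⁻¹ from rfl, hinv]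
          exact H.neg_mem hx' }
    have hKn : K.Normal := ⟨fun x hx g => by
      obtain ⟨hx, hx'⟩ := hx
      exact ⟨Subgroup.Normal.conj_mem inferInstance x hx g, hconj g ⟨x, hx⟩ ▸ hH (φ g) _ hx'⟩⟩
    rcases hirr K hKn (fun x hx => ⟨hWU hx, by rw [(hker ⟨x, hWU hx⟩).2 hx]; exact H.zero_mem⟩)
      (fun x hx => hx.1) with e | e
    · refine Or.inl (eq_bot_iff.2 fun a ha => AddSubgroup.mem_bot.2 ?_)
      obtain ⟨x, rfl⟩ := hv a
      exact (hker x).2 (e ▸ (⟨x.2, ha⟩ : (x : G) ∈ K))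
    · refine Or.inr (eq_top_iff.2 fun a _ => ?_)
      obtain ⟨x, rfl⟩ := hv a
      obtain ⟨_, h⟩ := (e.ge x.2 : (x : G) ∈ K)
      exact h
  have htriv := trivial_of_quadratic ρ hp2 hA hneg hirr' fun c d a => by
    obtain ⟨a₁, ha₁, e₁⟩ := hAs c
    obtain ⟨b₁, hb₁, e₂⟩ := hAs d
    obtain ⟨w, rfl⟩ := hv a
    rw [← e₁, ← e₂, hcomm, ← sub_eq_zero, hcomm]
    exact (hker _).2 (hq a₁ ha₁ b₁ hb₁ w w.2)
  intro g w hw
  have := hcomm g ⟨w, hw⟩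
  rw [htriv, sub_self] at this
  exact (hker _).1 this.symm

/-- A section covered by subgroups fixed by opposite unitriangular groups. -/
theorem sect_halves (hp2 : p ≠ 2) (φ : G →* Matrix.SpecialLinearGroup (Fin 2) F) (hφ : Function.Surjective φ)
    (U W : Subgroup G) [U.Normal] [W.Normal] (hc : ∀ a ∈ U, ∀ b ∈ U, ⁅a, b⁆ ∈ W)
    (hp : ∀ a ∈ U, a ^ p ∈ W) (hk : ∀ k : G, φ k = 1 ∨ φ k = -1 → ∀ a ∈ U, ⁅k, a⁆ ∈ W)
    {E E' : Subgroup G} (hE : E ≤ U) (hE' : E' ≤ U) (hgen : U ≤ E ⊔ E' ⊔ W)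
    (hf : ∀ c : F, ∃ a, φ a = xu c ∧ ∀ e ∈ E, ⁅a, e⁆ ∈ W)
    (hf' : ∀ c : F, ∃ a, φ a = yl c ∧ ∀ e ∈ E', ⁅a, e⁆ ∈ W) : ∀ g : G, ∀ w ∈ U, ⁅g, w⁆ ∈ W := by
  obtain ⟨A, iA, iAf, v, ρ, hv, hmul, hker, hA, hneg, hconj⟩ := exists_sect φ hφ U W hc hp hk
  have h0 : v 1 = 0 := (hker 1).2 W.one_mem
  have hinv : ∀ a, v a⁻¹ = -v a := fun a =>
    eq_neg_of_add_eq_zero_left (by rw [← hmul, inv_mul_cancel, h0])
  have hcomm : ∀ (g : G) (w : ↥U), ρ (φ g) (v w) - v w = v ⟨⁅g, (w : G)⁆, by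
      rw [commutatorElement_def]; exact U.mul_mem (Subgroup.Normal.conj_mem inferInstance _ w.2 g) (U.inv_mem w.2)⟩ :=
    fun g w => by
      rw [hconj, sub_eq_add_neg, ← hinv, ← hmul]
      rfl
  let K : Subgroup G :=
    { carrier := {x | ∃ h : x ∈ U, v ⟨x, h⟩ ∈ V0 ρ ⊔ V1 ρ}
      one_mem' := ⟨U.one_mem, by
        rw [show (⟨1, U.one_mem⟩ : ↥U) = 1 from rfl, h0]; exact zero_mem _⟩
      mul_mem' := fun {x y} hx hy => by
        obtain ⟨hx, hx'⟩ := hx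
        obtain ⟨hy, hy'⟩ := hy
        refine ⟨U.mul_mem hx hy, ?_⟩
        rw [show (⟨x * y, U.mul_mem hx hy⟩ : ↥U) = ⟨x, hx⟩ * ⟨y, hy⟩ from rfl, hmul]
        exact add_mem hx' hy'
      inv_mem' := fun {x} hx => by
        obtain ⟨hx, hx'⟩ := hx
        refine ⟨U.inv_mem hx, ?_⟩
        rw [show (⟨x⁻¹, U.inv_mem hx⟩ : ↥U) = ⟨x, hx⟩⁻¹ from rfl, hinv]
        exact neg_mem hx' }
  have hfix : ∀ {a : G} {e : G} (he : e ∈ U), ⁅a, e⁆ ∈ W → ρ (φ a) (v ⟨e, he⟩) = v ⟨e, he⟩ := by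
    intro a e he h
    exact sub_eq_zero.1 ((hcomm a ⟨e, he⟩).trans ((hker _).2 h))
  have hUK : U ≤ K := by
    intro w hw
    have hle : E ⊔ E' ⊔ (W ⊓ U) ≤ K := by
      refine sup_le (sup_le (fun e he => ⟨hE he, AddSubgroup.mem_sup_left fun c => ?_⟩)
        (fun e he => ⟨hE' he, AddSubgroup.mem_sup_right fun c => ?_⟩))
        fun e he => ⟨he.2, by rw [(hker ⟨e, he.2⟩).2 he.1]; exact zero_mem _⟩
      · obtain ⟨a, e1, h⟩ := hf c
        rw [← e1]; exact hfix (hE he) (h e he)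
      · obtain ⟨a, e1, h⟩ := hf' c
        rw [← e1]; exact hfix (hE' he) (h e he)
    have h1 := hgen hw
    rw [← SetLike.mem_coe, mul_normal] at h1
    obtain ⟨x, hx, y, hy, rfl⟩ := h1
    have hxU : x ∈ U := (sup_le hE hE') hx
    have hyU : y ∈ U := by
      have := U.mul_mem (U.inv_mem hxU) hw
      rwa [inv_mul_cancel_left] at this
    exact hle (mul_mem (mem_sup_left hx) (mem_sup_right ⟨hy, hyU⟩))
  have htriv := trivial_of_halves (p := p) hp2 _ A ρ rfl hA hneg fun a => by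
    obtain ⟨x, rfl⟩ := hv a
    obtain ⟨_, h⟩ := hUK x.2
    obtain ⟨b, hb, d, hd, e⟩ := AddSubgroup.mem_sup.1 h
    exact ⟨b, hb, d, hd, e.symm⟩
  intro g w hw
  have := hcomm g ⟨w, hw⟩
  rw [htriv, sub_self] at this
  exact (hker _).1 this.symm

end Cfsg.Agent.H73.Focal
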