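import Cfsg.Agent.H73.Focal.Three.Facts
import Cfsg.Agent.H73.Focal.Three.Sect
import Cfsg.Agent.H73.Focal.Count
import Mathlib

/-! The local subgroup in the focal argument for `p = 3`. -/

set_option autoImplicit false
set_option linter.style.haveILetI false

namespace Cfsg.Agent.H73.Focal

open Subgroup
open Cfsg.Agent.H72 (IsMaxAb)
open Cfsg.Agent.H75.SL2Natural (xu yl ww)
open scoped commutatorElement

universe u

variable {G : Type u} [Group G] [Finite G] {p : ℕ} [Fact p.Prime] {F : Type} [Field F] [Fintype F] [CharP F p]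

local notation "SL2" => Matrix.SpecialLinearGroup (Fin 2) F
local notation "M2" => Matrix (Fin 2) (Fin 2) F

/-- The setting. -/
structure Ctx (p : ℕ) (S : Sylow p G) (V X J T : Subgroup G) (F : Type) [Field F] [Fintype F]
    (φ : ↥X →* Matrix.SpecialLinearGroup (Fin 2) F) : Prop where
  facts : Facts p S V X F φ
  d : VData p S V
  hp2 : p ≠ 2
  hJeq : J = tilde (S : Subgroup G)
  syl : SylIn p J X
  hVJ : V ≤ J
  hQJ : Cfsg.pCore p G ⊓ X ≤ J
  hφJ : (J.subgroupOf X).map φ = H1.upperUni F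
  uniq : ∃ N : Subgroup G, J ≤ N ∧ N ≤ X ∧ N ≠ X ∧ ∀ Y : Subgroup G, J ≤ Y → Y ≤ X → Y ≠ X → Y ≤ N
  hT : ∀ Y : Subgroup G, J ≤ Y → Y ≤ X → Y ≠ X → ∀ q ∈ Cfsg.pCore p G, ∀ y ∈ Y, ⁅q, y⁆ ∈ T

/-- The kernel inside `G`. -/
def kerIn {X : Subgroup G} (φ : ↥X →* Matrix.SpecialLinearGroup (Fin 2) F) : Subgroup G := φ.ker.map X.subtype

/-- The preimage of `±1` inside `G`. -/
def pmIn {X : Subgroup G} (φ : ↥X →* Matrix.SpecialLinearGroup (Fin 2) F) : Subgroup G :=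
  ((zpowers (-1 : Matrix.SpecialLinearGroup (Fin 2) F)).comap φ).map X.subtype

omit [Finite G] in
theorem mem_kerIn {X : Subgroup G} {φ : ↥X →* SL2} {x : G} : x ∈ kerIn φ ↔ ∃ h : x ∈ X, φ ⟨x, h⟩ = 1 :=
  ⟨fun ⟨y, hy, e⟩ => e ▸ ⟨y.2, hy⟩, fun ⟨h, e⟩ => ⟨⟨x, h⟩, e, rfl⟩⟩

omit [Fintype F] in
theorem mem_zpowers_neg {m : SL2} :
    m ∈ zpowers (-1 : SL2) ↔ m = 1 ∨ m = -1 := by
  constructor
  · rw [mem_zpowers_iff]
    rintro ⟨k, rfl⟩
    rcases Int.even_or_odd k with h | h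
    · exact Or.inl h.neg_one_zpow
    · exact Or.inr h.neg_one_zpow
  · rintro (rfl | rfl)
    · exact one_mem _
    · exact mem_zpowers _

omit [Finite G] in
theorem mem_pmIn {X : Subgroup G} {φ : ↥X →* SL2} {x : G} :
    x ∈ pmIn φ ↔ ∃ h : x ∈ X, φ ⟨x, h⟩ = 1 ∨ φ ⟨x, h⟩ = -1 :=
  ⟨fun ⟨y, hy, e⟩ => e ▸ ⟨y.2, mem_zpowers_neg.1 hy⟩, fun ⟨h, e⟩ => ⟨⟨x, h⟩, mem_zpowers_neg.2 e, rfl⟩⟩

omit [Finite G] in
theorem le_normalizer_map_subtype {X : Subgroup G} (K : Subgroup ↥X) [K.Normal] :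
    X ≤ normalizer ((K.map X.subtype : Subgroup G) : Set G) := by
  intro g hg
  refine mem_normalizer_iff.2 fun x => ⟨?_, ?_⟩
  · rintro ⟨y, hy, rfl⟩
    exact ⟨⟨g, hg⟩ * y * ⟨g, hg⟩⁻¹, Subgroup.Normal.conj_mem inferInstance y hy _, rfl⟩
  · rintro ⟨y, hy, e⟩
    refine ⟨⟨g, hg⟩⁻¹ * y * ⟨g, hg⟩, by simpa using Subgroup.Normal.conj_mem inferInstance y hy (⟨g, hg⟩ : ↥X)⁻¹, ?_⟩
    simp only [Subgroup.subtype_apply] at e
    simp [e, mul_assoc]

omit [Finite G] in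
theorem le_normalizer_comm {X A B : Subgroup G} (hA : X ≤ normalizer (A : Set G)) (hB : X ≤ normalizer (B : Set G)) :
    X ≤ normalizer ((⁅A, B⁆ : Subgroup G) : Set G) := fun g hg => by
  rw [mem_normalizer_iff_map_conj_eq, Subgroup.map_commutator, mem_normalizer_iff_map_conj_eq.1 (hA hg),
    mem_normalizer_iff_map_conj_eq.1 (hB hg)]

omit [Finite G] in
theorem le_normalizer_sup' {X A B : Subgroup G} (hA : X ≤ normalizer (A : Set G)) (hB : X ≤ normalizer (B : Set G)) :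
    X ≤ normalizer ((A ⊔ B : Subgroup G) : Set G) := fun g hg => by
  rw [mem_normalizer_iff_map_conj_eq, Subgroup.map_sup, mem_normalizer_iff_map_conj_eq.1 (hA hg),
    mem_normalizer_iff_map_conj_eq.1 (hB hg)]

omit [Finite G] in
theorem le_normalizer_inf' {X A B : Subgroup G} (hA : X ≤ normalizer (A : Set G)) (hB : X ≤ normalizer (B : Set G)) :
    X ≤ normalizer ((A ⊓ B : Subgroup G) : Set G) := fun g hg => by
  rw [mem_normalizer_iff_map_conj_eq, Subgroup.map_inf _ _ _ (MulAut.conj g).injective,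
    mem_normalizer_iff_map_conj_eq.1 (hA hg), mem_normalizer_iff_map_conj_eq.1 (hB hg)]

omit [Finite G] in
theorem comm_mem_of_normalizes {A : Subgroup G} {g a : G} (hg : g ∈ normalizer (A : Set G)) (ha : a ∈ A) :
    ⁅g, a⁆ ∈ A := by
  rw [commutatorElement_def]; exact A.mul_mem ((mem_normalizer_iff.1 hg a).1 ha) (A.inv_mem ha)

/-- The elements of `B` moved by `x` only inside `L`. -/
theorem fix_mod_mul {L : Subgroup G} {x a b : G} (ha : a ∈ normalizer (L : Set G)) (h1 : ⁅x, a⁆ ∈ L)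
    (h2 : ⁅x, b⁆ ∈ L) : ⁅x, a * b⁆ ∈ L := by
  rw [show ⁅x, a * b⁆ = ⁅x, a⁆ * (a * ⁅x, b⁆ * a⁻¹) by simp only [commutatorElement_def]; group]
  exact L.mul_mem h1 ((mem_normalizer_iff.1 ha _).1 h2)

/-- Transitivity of `Triv`. -/
theorem triv_trans {X O A B C : Subgroup G} (hO : IsPGroup p O) (hOX : O ≤ X) (hC : C ≤ O) (hA : A ≤ O)
    (hXA : X ≤ normalizer (A : Set G)) (hXO : X ≤ normalizer (O : Set G))
    (h1 : Triv p X A B) (h2 : Triv p X B C) : Triv p X A C := fun x hx hxp b hb =>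
  comm_mem_of_twice hO hxp (hC hb) (comm_mem_of_normalizes (hXO hx) (hC hb)) hA (hOX.trans hXA)
    (h1 x hx hxp _ (h2 x hx hxp b hb)) (hXA hx)

/-- `p'`-elements trivial on generators modulo `L` are trivial on what they generate. -/
theorem triv_le {X L B : Subgroup G} (hBX : B ≤ X) (hXL : X ≤ normalizer (L : Set G)) {x : G} {s : Set G}
    (hs : ∀ b ∈ s, b ∈ B ∧ ⁅x, b⁆ ∈ L) (hB : B ≤ closure s) : ∀ b ∈ B, ⁅x, b⁆ ∈ L := by
  suffices h : ∀ b ∈ closure s, b ∈ B ∧ ⁅x, b⁆ ∈ L from fun b hb => (h b (hB hb)).2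
  intro b hb
  induction hb using closure_induction with
  | mem b hb => exact hs b hb
  | one => exact ⟨one_mem _, by rw [commutatorElement_one_right]; exact one_mem _⟩
  | mul a c _ _ iha ihc => exact ⟨mul_mem iha.1 ihc.1, fix_mod_mul (hXL (hBX iha.1)) iha.2 ihc.2⟩
  | inv a _ iha =>
    refine ⟨inv_mem iha.1, ?_⟩
    rw [show ⁅x, a⁻¹⁆ = a⁻¹ * ⁅x, a⁆⁻¹ * a⁻¹⁻¹ by simp only [commutatorElement_def]; group]
    exact (mem_normalizer_iff.1 (hXL (hBX (inv_mem iha.1))) _).1 (inv_mem iha.2)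

variable {S : Sylow p G} {V X J T : Subgroup G} {φ : ↥X →* Matrix.SpecialLinearGroup (Fin 2) F}

namespace Ctx

variable (C : Ctx p S V X J T F φ)
include C

theorem hJS : J ≤ (S : Subgroup G) := C.hJeq ▸ inf_le_left

theorem hJX : J ≤ X := C.syl.le

theorem hJp : IsPGroup p J := C.syl.isP

theorem two_ne : (2 : F) ≠ 0 := fun e => C.hp2 ((Nat.prime_dvd_prime_iff_eq Fact.out Nat.prime_two).1
  ((CharP.cast_eq_zero_iff F p 2).1 (by exact_mod_cast e)))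

theorem hO : Cfsg.pCore p G ⊓ X = J ⊓ centralizer (V : Set G) := by
  refine le_antisymm (le_inf C.hQJ (inf_le_left.trans C.d.QC)) fun x hx => ⟨?_, C.hJX hx.1⟩
  exact C.d.SC ⟨C.hJS hx.1, hx.2⟩

theorem hOn : X ≤ normalizer ((Cfsg.pCore p G ⊓ X : Subgroup G) : Set G) := by
  haveI := H19.pCore_normal p G
  exact le_normalizer_inf' (le_top.trans (normalizer_eq_top_iff.2 inferInstance).ge) le_normalizer

theorem hOp : IsPGroup p ↥(Cfsg.pCore p G ⊓ X) := C.hJp.to_le C.hQJ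

theorem hVn : X ≤ normalizer (V : Set G) := by
  haveI := C.d.Vn
  exact le_top.trans (normalizer_eq_top_iff.2 inferInstance).ge

theorem hVO : V ≤ Cfsg.pCore p G ⊓ X := le_inf C.d.VQ (C.hVJ.trans C.hJX)

theorem img_of_mem {x : ↥X} (hx : (x : G) ∈ J) : ∃ c : F, xu c = φ x := by
  refine mem_upperUni_iff.1 ?_
  rw [← C.hφJ]
  exact ⟨x, hx, rfl⟩

theorem exists_J (c : F) : ∃ a : ↥X, (a : G) ∈ J ∧ φ a = xu c := by
  have h : xu c ∈ (J.subgroupOf X).map φ := C.hφJ.symm ▸ mem_upperUni_iff.2 ⟨c, rfl⟩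
  obtain ⟨a, ha, e⟩ := h
  exact ⟨a, ha, e⟩

theorem ker_le_pm : kerIn φ ≤ pmIn φ := fun x hx => by
  obtain ⟨h, e⟩ := mem_kerIn.1 hx
  exact mem_pmIn.2 ⟨h, Or.inl e⟩

theorem ker_normal : X ≤ normalizer (kerIn φ : Set G) := le_normalizer_map_subtype _

theorem pm_normal : X ≤ normalizer (pmIn φ : Set G) := by
  haveI : ((zpowers (-1 : SL2)).comap φ).Normal := by
    refine ⟨fun x hx g => ?_⟩
    rw [mem_comap] at hx ⊢
    rw [map_mul, map_mul, map_inv]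
    rcases mem_zpowers_neg.1 hx with e | e
    · rw [e]; simp
    · rw [e, mul_neg, mul_one, neg_mul, mul_inv_cancel]; exact mem_zpowers _
  exact le_normalizer_map_subtype _

/-- `⟨J, φ⁻¹(±1)⟩` is not all of `X`. -/
theorem pm_sup_ne : pmIn φ ⊔ J ≠ X := by
  intro e
  let B : Subgroup SL2 :=
    { carrier := {m | (m : M2) 1 0 = 0}
      one_mem' := by simp
      mul_mem' := fun {a b} ha hb => by
        show ((a * b : SL2) : M2) 1 0 = 0
        simp only [Set.mem_setOf_eq] at ha hb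
        rw [Matrix.SpecialLinearGroup.coe_mul, Matrix.mul_apply, Fin.sum_univ_two, ha, hb]
        ring
      inv_mem' := fun {a} ha => by
        show ((a⁻¹ : SL2) : M2) 1 0 = 0
        simp only [Set.mem_setOf_eq] at ha
        rw [Matrix.SpecialLinearGroup.coe_inv, Matrix.adjugate_fin_two]
        simp [ha] }
  obtain ⟨x, hx⟩ := C.facts.surj ww
  have hle : pmIn φ ⊔ J ≤ (B.comap φ).map X.subtype := by
    refine sup_le (fun y hy => ?_) fun y hy => ⟨⟨y, C.hJX hy⟩, ?_, rfl⟩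
    · obtain ⟨h, h' | h'⟩ := mem_pmIn.1 hy
      · exact ⟨⟨y, h⟩, by show ((φ _ : SL2) : M2) 1 0 = 0; rw [h']; simp, rfl⟩
      · exact ⟨⟨y, h⟩, by show ((φ _ : SL2) : M2) 1 0 = 0; rw [h']; simp, rfl⟩
    · obtain ⟨c, hc⟩ := C.img_of_mem (x := ⟨y, C.hJX hy⟩) hy
      show ((φ _ : SL2) : M2) 1 0 = 0
      rw [← hc]
      exact (congrFun (congrFun (H75.SL2Natural.xu_val c) 1) 0).trans (by simp)
  obtain ⟨y, hy, e'⟩ := hle (e.ge x.2)
  rw [Subtype.ext e' (a2 := x)] at hy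
  have h1 : ((φ x : SL2) : M2) 1 0 = 0 := hy
  rw [hx] at h1
  have h2 := (congrFun (congrFun (H75.SL2Natural.ww_val (F := F)) 1) 0).symm.trans h1
  simp at h2

/-- A normal subgroup of `X` not in the kernel contains the `p'`-elements. -/
theorem mem_of_normal {D : Subgroup G} (hDX : D ≤ X) (hXD : X ≤ normalizer (D : Set G)) {a : ↥X}
    (haJ : (a : G) ∈ J) (haD : (a : G) ∈ D) (ha : φ a ≠ 1) {x : G} (hx : x ∈ X)
    (hxp : (orderOf x).Coprime p) : x ∈ D := by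
  haveI hn : (D.subgroupOf X).Normal := (normal_subgroupOf_iff_le_normalizer hDX).2 hXD
  haveI := hn.map φ C.facts.surj
  obtain ⟨k, hk⟩ := C.hJp ⟨_, haJ⟩
  have htop : (D.subgroupOf X).map φ = ⊤ := normal_eq_top (p := p) (k := k) C.two_ne
    ⟨a, haD, rfl⟩ ha (by
      rw [← map_pow, show a ^ p ^ k = 1 from Subtype.ext (congrArg Subtype.val hk :), map_one])
  have hDJ : D ⊔ J = X := by
    by_contra hne
    obtain ⟨N, hJN, hNX, hNne, hN⟩ := C.uniq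
    have h1 := hN _ le_sup_right (sup_le hDX C.hJX) hne
    have h2 := hN _ (le_sup_right : J ≤ pmIn φ ⊔ J) (sup_le (map_subtype_le _) C.hJX) C.pm_sup_ne
    refine hNne (le_antisymm hNX fun y hy => ?_)
    obtain ⟨e, heD, he⟩ := (htop.ge (mem_top (φ ⟨y, hy⟩)) : φ ⟨y, hy⟩ ∈ (D.subgroupOf X).map φ)
    have h3 : (e : G)⁻¹ * y ∈ N := h2 (mem_sup_left (mem_pmIn.2 ⟨X.mul_mem (X.inv_mem e.2) hy, Or.inl (by
      rw [show (⟨(e : G)⁻¹ * y, X.mul_mem (X.inv_mem e.2) hy⟩ : ↥X) = e⁻¹ * ⟨y, hy⟩ from rfl, map_mul,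
        map_inv, he, inv_mul_cancel])⟩))
    have := N.mul_mem (h1 (mem_sup_left heD)) h3
    rwa [Subgroup.subtype_apply, mul_inv_cancel_left] at this
  set π := QuotientGroup.mk' (D.subgroupOf X)
  have hq : IsPGroup p ↥((J.subgroupOf X).map π) :=
    (C.hJp.of_equiv (subgroupOfEquivOfLe C.hJX).symm).map π
  have hmem : π ⟨x, hx⟩ ∈ (J.subgroupOf X).map π := by
    have h : x ∈ D ⊔ J := hDJ.symm ▸ hx
    rw [← SetLike.mem_coe, coe_mul_of_right_le_normalizer_left _ _ (C.hJX.trans hXD)] at h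
    obtain ⟨e, he, j, hj, rfl⟩ := h
    refine ⟨⟨j, C.hJX hj⟩, hj, ?_⟩
    rw [show (⟨e * j, hx⟩ : ↥X) = ⟨e, hDX he⟩ * ⟨j, C.hJX hj⟩ from rfl, map_mul,
      show π ⟨e, hDX he⟩ = 1 from (QuotientGroup.eq_one_iff _).2 he, one_mul]
  obtain ⟨m, hm⟩ := hq ⟨_, hmem⟩
  have hm' : π ⟨x, hx⟩ ^ p ^ m = 1 := congrArg Subtype.val hm
  have hd : orderOf (π ⟨x, hx⟩) ∣ orderOf x := by
    rw [← Subgroup.orderOf_mk x hx]; exact orderOf_map_dvd _ _
  exact (QuotientGroup.eq_one_iff (⟨x, hx⟩ : ↥X)).1 (orderOf_eq_one_iff.1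
    (Nat.eq_one_of_dvd_coprimes (hxp.pow_right m) hd (orderOf_dvd_of_pow_eq_one hm')))

/-- The kernel part of `J` is normal in `X`. -/
theorem P0_normal : X ≤ normalizer ((J ⊓ kerIn φ : Subgroup G) : Set G) := by
  have hKX : kerIn φ ≤ X := map_subtype_le _
  have hs := C.syl.inf hKX C.ker_normal
  set P := J ⊓ kerIn φ
  by_contra hno
  obtain ⟨N, hJN, hNX, hNne, hN⟩ := C.uniq
  have hJP : J ≤ normalizer (P : Set G) := le_normalizer_inf' le_normalizer (C.hJX.trans C.ker_normal)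
  have h1 := hN (normalizer (P : Set G) ⊓ X) (le_inf hJP C.hJX) inf_le_right
    fun e => hno (e ▸ inf_le_left)
  have h2 : kerIn φ ≤ N := (C.ker_le_pm.trans le_sup_left).trans
    (hN _ le_sup_right (sup_le (map_subtype_le _) C.hJX) C.pm_sup_ne)
  refine hNne (le_antisymm hNX fun y hy => ?_)
  obtain ⟨k, hk, g, hg, rfl⟩ : ∃ k ∈ kerIn φ, ∃ g ∈ normalizer (P : Set G) ⊓ X, y = k * g := by
    haveI hKn : ((kerIn φ).subgroupOf X).Normal := (normal_subgroupOf_iff_le_normalizer hKX).2 C.ker_normal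
    have hsX : SylIn p (P.subgroupOf X) ((kerIn φ).subgroupOf X) := by
      refine ⟨fun z hz => hz.2, (C.hJp.to_le inf_le_left).comap_subtype, fun R hR hRp hle => ?_⟩
      have e := hs.max (R.map X.subtype) (fun z hz => by obtain ⟨w, hw, rfl⟩ := hz; exact hR hw) (hRp.map _)
        (fun z hz => ⟨⟨z, hKX hz.2⟩, hle hz, rfl⟩)
      refine le_antisymm (fun w hw => ?_) hle
      show (w : G) ∈ P
      exact e ▸ mem_map_of_mem X.subtype hw
    have h := hsX.frattini (g := (⟨y, hy⟩ : ↥X)) ((normalizer_eq_top_iff.2 hKn).ge (mem_top _))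
    rw [← SetLike.mem_coe, normal_mul] at h
    obtain ⟨k, hk, g, hg, e⟩ := h
    refine ⟨k, hk, g, ⟨mem_normalizer_iff.2 fun z => ?_, g.2⟩, (congrArg Subtype.val e).symm⟩
    constructor
    · intro hz
      exact (mem_normalizer_iff.1 hg ⟨z, hKX hz.2⟩).1 hz
    · intro hz
      have hzX : z ∈ X := by
        have := X.mul_mem (X.mul_mem (X.inv_mem g.2) (hKX hz.2)) g.2
        simpa [mul_assoc] using this
      exact (mem_normalizer_iff.1 hg ⟨z, hzX⟩).2 hz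
  exact N.mul_mem (h2 hk) (h1 hg)

/-- A `p'`-element mapping to `-1`. -/
theorem exists_z : ∃ z : ↥X, (orderOf (z : G)).Coprime p ∧ φ z = -1 := by
  obtain ⟨z₀, hz₀⟩ := C.facts.surj (-1)
  refine ⟨z₀ ^ p ^ (orderOf z₀).factorization p, ?_, ?_⟩
  · have hn : orderOf z₀ ≠ 0 := (orderOf_pos z₀).ne'
    rw [Subgroup.orderOf_coe, orderOf_pow' z₀ (pow_ne_zero _ (Fact.out : p.Prime).ne_zero),
      Nat.gcd_eq_right (Nat.ordProj_dvd _ _)]
    exact (Nat.coprime_ordCompl Fact.out hn).symm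
  · rw [map_pow, hz₀, (((Fact.out : p.Prime).odd_of_ne_two C.hp2).pow).neg_one_pow]

/-- Orders of subgroups of `X` through the kernel and the image. -/
theorem card_eq_img {H : Subgroup G} (hH : H ≤ X) :
    Nat.card H = Nat.card ↥(H ⊓ kerIn φ) * Nat.card ↥((H.subgroupOf X).map φ) := by
  let f : ↥H →* SL2 := φ.comp (Subgroup.inclusion hH)
  have h1 : Nat.card f.ker = Nat.card ↥(H ⊓ kerIn φ) := Nat.card_congr
    { toFun := fun x => ⟨((x : ↥H) : G), (x : ↥H).2, mem_kerIn.2 ⟨hH (x : ↥H).2, x.2⟩⟩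
      invFun := fun x => ⟨⟨x, x.2.1⟩, (mem_kerIn.1 x.2.2).2⟩
      left_inv := fun x => rfl
      right_inv := fun x => rfl }
  rw [← f.ker.card_mul_index, h1, Subgroup.index_ker]
  refine congrArg (fun K : Subgroup SL2 => Nat.card ↥(H ⊓ kerIn φ) * Nat.card ↥K) (Subgroup.ext fun m => ?_)
  constructor
  · rintro ⟨x, rfl⟩; exact ⟨Subgroup.inclusion hH x, x.2, rfl⟩
  · rintro ⟨x, hx, rfl⟩; exact ⟨⟨x, hx⟩, rfl⟩

theorem img_le {H : Subgroup G} (hH : H ≤ J) : (H.subgroupOf X).map φ ≤ H1.upperUni F :=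
  C.hφJ ▸ map_mono fun x hx => hH hx

theorem card_img_le {H : Subgroup G} (hH : H ≤ J) : Nat.card ↥((H.subgroupOf X).map φ) ≤ Fintype.card F :=
  (card_le_of_le (C.img_le hH)).trans_eq H1.card_upperUni

theorem maxAb_le_J {A : Subgroup G} (hA : IsMaxAb (S : Subgroup G) A) : A ≤ J :=
  C.hJeq ▸ le_inf hA.1 fun a ha => mem_centralizer_iff.2 fun t ht =>
    (mem_centralizer_iff.1 ht.2 a (hA.le_thompson ha)).symm

/-- The commutator part lies in `T`. -/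
theorem R1_le : ⁅Cfsg.pCore p G ⊓ X, pmIn φ⁆ ≤ T :=
  commutator_le.2 fun q hq y hy =>
    C.hT _ le_sup_right (sup_le (map_subtype_le _) C.hJX) C.pm_sup_ne q hq.1 y (mem_sup_left hy)

theorem R1_le_O : ⁅Cfsg.pCore p G ⊓ X, pmIn φ⁆ ≤ Cfsg.pCore p G ⊓ X :=
  commutator_le.2 fun q hq y hy => by
    rw [← commutatorElement_inv]
    exact inv_mem (comm_mem_of_normalizes (C.hOn (map_subtype_le _ hy)) hq)

theorem R1_normal : X ≤ normalizer ((⁅Cfsg.pCore p G ⊓ X, pmIn φ⁆ : Subgroup G) : Set G) :=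
  le_normalizer_comm C.hOn C.pm_normal

/-- A quadratic irreducible layer is central for `X`. -/
theorem layer_quad {U W : Subgroup G} (hUX : U ≤ X) (hWU : W ≤ U) (hU : X ≤ normalizer (U : Set G))
    (hW : X ≤ normalizer (W : Set G)) (hc : ∀ a ∈ U, ∀ b ∈ U, ⁅a, b⁆ ∈ W) (hp : ∀ a ∈ U, a ^ p ∈ W)
    (hk : ∀ k ∈ pmIn φ, ∀ a ∈ U, ⁅k, a⁆ ∈ W)
    (hirr : ∀ H : Subgroup G, X ≤ normalizer (H : Set G) → W ≤ H → H ≤ U → H = W ∨ H = U)
    {As : Subgroup G} (hAs : As ≤ X) (himg : H1.upperUni F ≤ (As.subgroupOf X).map φ)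
    (hq : ∀ a ∈ As, ∀ b ∈ As, ∀ w ∈ U, ⁅b, ⁅a, w⁆⁆ ∈ W) : ∀ x ∈ X, ∀ w ∈ U, ⁅x, w⁆ ∈ W := by
  haveI : (U.subgroupOf X).Normal := (normal_subgroupOf_iff_le_normalizer hUX).2 hU
  haveI : (W.subgroupOf X).Normal := (normal_subgroupOf_iff_le_normalizer (hWU.trans hUX)).2 hW
  have h := sect_quadratic C.hp2 φ C.facts.surj (U.subgroupOf X) (W.subgroupOf X) (fun x hx => hWU hx)
    (fun a ha b hb => hc a ha b hb) (fun a ha => hp a ha)
    (fun k hk' a ha => hk k (mem_pmIn.2 ⟨k.2, hk'⟩) a ha)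
    (fun H hH h1 h2 => by
      haveI := hH
      rcases hirr (H.map X.subtype) (le_normalizer_map_subtype H)
        (fun w hw => ⟨⟨w, hUX (hWU hw)⟩, h1 hw, rfl⟩) (fun w hw => by
          obtain ⟨y, hy, rfl⟩ := hw; exact h2 hy) with e | e
      · exact Or.inl (by rw [← e, Subgroup.subgroupOf, comap_map_eq_self_of_injective X.subtype_injective])
      · exact Or.inr (by rw [← e, Subgroup.subgroupOf, comap_map_eq_self_of_injective X.subtype_injective]))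
    (As.subgroupOf X : Set ↥X) (fun c => by
      obtain ⟨a, ha, e⟩ := himg (mem_upperUni_iff.2 ⟨c, rfl⟩)
      exact ⟨a, ha, e⟩)
    (fun a ha b hb w hw => hq a ha b hb w hw)
  exact fun x hx w hw => h ⟨x, hx⟩ ⟨w, hUX hw⟩ hw

omit C in
theorem upper_lower_gen {H : Subgroup SL2} (h1 : ∀ c, xu c ∈ H) (h2 : ∀ c, yl c ∈ H) : H = ⊤ :=
  eq_top_iff.2 fun m _ => H75.SL2Natural.sl_induction (fun m => m ∈ H) h1 h2 (fun _ _ => H.mul_mem) m

end Ctx

end Cfsg.Agent.H73.Focal
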