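import Cfsg.Agent.H73.Focal.Local
import Cfsg.Agent.H73.Focal.Basic
import Mathlib

/-! Facts read off the coordinates. -/

set_option autoImplicit false
set_option linter.style.haveILetI false

namespace Cfsg.Agent.H73.Focal

open Subgroup
open Cfsg.Agent.H72 (IsMaxAb)
open scoped commutatorElement Matrix

universe u

variable {G : Type u} [Group G] [Finite G] {p : ℕ} [Fact p.Prime] {F : Type} [Field F] [Fintype F] [CharP F p]

local notation "SL2" => Matrix.SpecialLinearGroup (Fin 2) F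
local notation "M2" => Matrix (Fin 2) (Fin 2) F

/-- A nontrivial element of `SL₂` fixes at most a line. -/
theorem card_fixed_le {m : SL2} (hm : m ≠ 1) :
    Nat.card {w : Fin 2 → F // (m : M2) *ᵥ w = w} ≤ Fintype.card F := by
  classical
  let K : Submodule F (Fin 2 → F) := LinearMap.ker (Matrix.mulVecLin ((m : M2) - 1))
  have e : {w : Fin 2 → F // (m : M2) *ᵥ w = w} ≃ ↥K := Equiv.subtypeEquivRight fun w => by
    rw [LinearMap.mem_ker, Matrix.mulVecLin_apply, Matrix.sub_mulVec, Matrix.one_mulVec, sub_eq_zero]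
  have hK : K ≠ ⊤ := fun h => hm (Subtype.ext (by
    refine Matrix.ext_of_mulVec_single fun j => ?_
    have : (Pi.single j 1 : Fin 2 → F) ∈ K := h ▸ Submodule.mem_top
    rw [LinearMap.mem_ker, Matrix.mulVecLin_apply, Matrix.sub_mulVec, sub_eq_zero] at this
    rw [this, Matrix.SpecialLinearGroup.coe_one]))
  have h1 := Submodule.finrank_lt hK
  rw [Module.finrank_pi, Fintype.card_fin] at h1
  rw [Nat.card_congr e, Module.natCard_eq_pow_finrank (K := F) (V := ↥K), Nat.card_eq_fintype_card]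
  calc Fintype.card F ^ Module.finrank F ↥K ≤ Fintype.card F ^ 1 :=
        Nat.pow_le_pow_right Fintype.card_pos (by omega)
    _ = Fintype.card F := pow_one _

/-- A `p`-subgroup of `SL₂` has at most `q` elements. -/
theorem card_pSubgroup_le {H : Subgroup SL2} (hH : IsPGroup p H) : Nat.card H ≤ Fintype.card F := by
  obtain ⟨P, hP⟩ := hH.exists_le_sylow
  refine (card_le_of_le hP).trans_eq ?_
  rw [Sylow.card_eq_multiplicity P, ← Sylow.card_eq_multiplicity (H1.sylowSL (F := F) p), H1.coe_sylowSL,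
    H1.card_upperUni]

variable {S : Sylow p G} {V : Subgroup G} {r : ℕ}

omit [Fintype F] [CharP F p] in
theorem Coord.exists_vec (c : Coord p (S : Subgroup G) V F r) (w : Fin r → Fin 2 → F) :
    ∃ v ∈ V, ∀ j, c.π j v = w j := by
  classical
  suffices h : ∀ s : Finset (Fin r), ∃ v ∈ V, ∀ j, c.π j v = if j ∈ s then w j else 0 by
    obtain ⟨v, hv, h'⟩ := h Finset.univ
    exact ⟨v, hv, fun j => by simpa using h' j⟩
  intro s
  induction s using Finset.induction with
  | empty => exact ⟨1, one_mem _, fun j => by simpa using c.pi_one j⟩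
  | @insert i s his ih =>
    obtain ⟨v, hv, h⟩ := ih
    obtain ⟨u, hu, hui, huo⟩ := c.surj i (w i)
    refine ⟨u * v, V.mul_mem hu hv, fun j => ?_⟩
    rw [c.πmul j u hu v hv, h j]
    by_cases hj : j = i
    · subst hj; simp [hui, his]
    · simp [huo j hj, hj]

/-- An abelian subgroup of largest order is an exact offender with full images. -/
theorem Coord.maxAb_exact (c : Coord p (S : Subgroup G) V F r) (d : VData p S V) {A : Subgroup G}
    (hA : IsMaxAb (S : Subgroup G) A) (hAL : A ≤ c.Lall) :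
    Nat.card V * Nat.card ↥(A ⊓ centralizer (V : Set G)) =
        Nat.card A * Nat.card ↥(V ⊓ centralizer (A : Set G)) ∧
      ∀ (i : Fin r) (a : G) (ha : a ∈ A), c.chi i ⟨a, hAL ha⟩ ≠ 1 →
        Nat.card ↥((A.subgroupOf c.Lall).map (c.chi i)) = Fintype.card F := by
  classical
  set q := Fintype.card F with hq
  have hge : Nat.card V * Nat.card ↥(A ⊓ centralizer (V : Set G)) ≤
      Nat.card A * Nat.card ↥(V ⊓ centralizer (A : Set G)) := by
    have h := d.maxAb_offNum hA (A ⊓ centralizer (V : Set G)) inf_le_left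
    rwa [H34.offNum, H34.offNum, inf_eq_left.2 (le_centralizer_iff.1 (inf_le_right : A ⊓ centralizer (V : Set G) ≤ _)),
      mul_comm (Nat.card ↥(A ⊓ centralizer (V : Set G)))] at h
  let Im : Fin r → Subgroup SL2 := fun j => (A.subgroupOf c.Lall).map (c.chi j)
  let a : Fin r → ℕ := fun j => Nat.card (Im j)
  let b : Fin r → ℕ := fun j => if Im j = ⊥ then 1 else q
  have hab : ∀ j, a j ≤ b j := fun j => by
    simp only [a, b]
    split_ifs with h
    · rw [h, Subgroup.card_bot]
    · refine card_pSubgroup_le (p := p) (IsPGroup.map ?_ _)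
      exact (S.2.to_le hA.1).of_equiv (subgroupOfEquivOfLe hAL).symm
  -- the subgroup
  have hAcard : Nat.card A ≤ Nat.card ↥(A ⊓ centralizer (V : Set G)) * ∏ j, a j := by
    let f : ↥A →* (Fin r → SL2) := MonoidHom.mk' (fun x j => c.chi j ⟨x, hAL x.2⟩) fun x y => by
      funext j
      exact map_mul (c.chi j) ⟨x, hAL x.2⟩ ⟨y, hAL y.2⟩
    rw [← f.ker.card_mul_index, Subgroup.index_ker]
    refine Nat.mul_le_mul ?_ ?_
    · refine Nat.card_le_card_of_injective (fun x => ⟨((x : ↥A) : G), (x : ↥A).2, ?_⟩) fun x y e => ?_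
      · exact c.mem_C_of_chi (g := ⟨_, hAL (x : ↥A).2⟩) fun j => congrFun (MonoidHom.mem_ker.1 x.2) j
      · exact Subtype.ext (Subtype.ext (congrArg (fun z : ↥(A ⊓ centralizer (V : Set G)) => (z : G)) e))
    · rw [← Nat.card_pi]
      refine Nat.card_le_card_of_injective (fun m j => (⟨m.1 j, ?_⟩ : Im j)) fun m m' e => ?_
      · obtain ⟨x, hx⟩ := m.2
        exact ⟨⟨x, hAL x.2⟩, x.2, by rw [← hx]; rfl⟩
      · exact Subtype.ext (funext fun j => congrArg Subtype.val (congrFun e j))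
  -- the fixed points
  set CV := V ⊓ centralizer (A : Set G)
  have hVcard : Nat.card CV * ∏ j, b j ≤ Nat.card V := by
    let g : ↥V →* Multiplicative (Fin r → Fin 2 → F) :=
      MonoidHom.mk' (fun v => Multiplicative.ofAdd fun j => c.π j v) fun v w => by
        rw [← ofAdd_add]
        exact congrArg _ (funext fun j => c.πmul j v v.2 w w.2)
    have hgs : Function.Surjective g := fun w => by
      obtain ⟨v, hv, h⟩ := c.exists_vec (Multiplicative.toAdd w)
      exact ⟨⟨v, hv⟩, congrArg Multiplicative.ofAdd (funext h)⟩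
    let Fx : Fin r → Type := fun j => {w : Fin 2 → F // ∀ m ∈ Im j, ((m : SL2) : M2) *ᵥ w = w}
    have hFx : ∀ j, Nat.card (Fx j) * b j ≤ q * q := fun j => by
      have hall : Nat.card (Fx j) ≤ q * q :=
        (Nat.card_le_card_of_injective (fun w : Fx j => w.1) Subtype.val_injective).trans_eq (by simp [hq, pow_two])
      simp only [b]
      split_ifs with h
      · rwa [mul_one]
      · obtain ⟨m, hm, hm1⟩ := (bot_or_exists_ne_one (Im j)).resolve_left h
        exact Nat.mul_le_mul_right _ ((Nat.card_le_card_of_injective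
          (fun w : Fx j => (⟨w.1, w.2 m hm⟩ : {w : Fin 2 → F // ((m : SL2) : M2) *ᵥ w = w}))
          fun x y e => Subtype.ext (congrArg (fun z : {w : Fin 2 → F // ((m : SL2) : M2) *ᵥ w = w} => z.1) e :)).trans (card_fixed_le hm1))
    let gC := g.comp (Subgroup.inclusion (inf_le_left : CV ≤ V))
    have h1 : Nat.card CV ≤ Nat.card g.ker * ∏ j, Nat.card (Fx j) := by
      rw [← gC.ker.card_mul_index, Subgroup.index_ker]
      refine Nat.mul_le_mul ?_ ?_
      · refine Nat.card_le_card_of_injective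
          (fun x => (⟨Subgroup.inclusion (inf_le_left : CV ≤ V) x, x.2⟩ : g.ker)) fun x y e => ?_
        exact Subtype.ext (Subgroup.inclusion_injective _ (congrArg (fun z : ↥g.ker => z.1) e :))
      · rw [← Nat.card_pi]
        refine Nat.card_le_card_of_injective
          (fun w j => (⟨Multiplicative.toAdd w.1 j, ?_⟩ : Fx j)) fun w w' e => ?_
        · obtain ⟨v, hv⟩ := w.2
          rintro _ ⟨x, hx, rfl⟩
          rw [← hv]
          show _ *ᵥ c.π j v = c.π j v
          rw [← c.chi_spec j x v v.2.1, mem_centralizer_iff.1 v.2.2 (x : G) hx, mul_inv_cancel_right]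
        · exact Subtype.ext (Multiplicative.toAdd.injective (funext fun j => congrArg Subtype.val (congrFun e j)))
    have h2 : Nat.card V = Nat.card g.ker * ∏ _j : Fin r, q * q := by
      rw [← g.ker.card_mul_index, Subgroup.index_ker, MonoidHom.range_eq_top.2 hgs, Subgroup.card_top,
        Nat.card_congr Multiplicative.toAdd, Nat.card_pi]
      congr 1
      refine Finset.prod_congr rfl fun j _ => ?_
      simp [hq, pow_two]
    calc Nat.card CV * ∏ j, b j ≤ (Nat.card g.ker * ∏ j, Nat.card (Fx j)) * ∏ j, b j := Nat.mul_le_mul_right _ h1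
      _ = Nat.card g.ker * ∏ j, Nat.card (Fx j) * b j := by rw [Finset.prod_mul_distrib, mul_assoc]
      _ ≤ Nat.card g.ker * ∏ _j : Fin r, q * q := Nat.mul_le_mul_left _ (Finset.prod_le_prod' fun j _ => hFx j)
      _ = Nat.card V := h2.symm
  set A₀ := A ⊓ centralizer (V : Set G)
  have hprod : ∏ j, a j ≤ ∏ j, b j := Finset.prod_le_prod' fun j _ => hab j
  have hchain : Nat.card A * Nat.card CV ≤ Nat.card A₀ * ((∏ j, a j) * Nat.card CV) :=
    (Nat.mul_le_mul_right _ hAcard).trans_eq (mul_assoc _ _ _)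
  have hchain' : Nat.card A₀ * ((∏ j, b j) * Nat.card CV) ≤ Nat.card V * Nat.card A₀ := by
    rw [mul_comm (∏ j, b j), mul_comm (Nat.card V)]
    exact Nat.mul_le_mul_left _ hVcard
  have heq : ∏ j, a j = ∏ j, b j := by
    refine le_antisymm hprod ?_
    have h3 := (hchain'.trans hge).trans hchain
    exact Nat.le_of_mul_le_mul_right (Nat.le_of_mul_le_mul_left h3 Nat.card_pos) Nat.card_pos
  refine ⟨le_antisymm hge (hchain.trans (heq ▸ hchain')), fun i x hx hne => ?_⟩
  have hbi : b i = q := if_neg fun h => hne (by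
    rw [← mem_bot, ← h]; exact ⟨⟨x, hAL hx⟩, hx, rfl⟩)
  refine le_antisymm (hbi ▸ hab i) (not_lt.1 fun hlt => ?_)
  exact (Finset.prod_lt_prod (fun j _ => (Nat.card_pos : 0 < a j)) (fun j _ => hab j)
    ⟨i, Finset.mem_univ i, by rw [hbi]; exact hlt⟩).ne heq

variable {X : Subgroup G}

/-- A `p'`-element of `X` is trivial on the other coordinates. -/
theorem Coord.chi_other (c : Coord p (S : Subgroup G) V F r) {i : Fin r} (hXL : X ≤ c.Lall)
    (hX : X ≤ c.L i ⊔ ((S : Subgroup G) ⊓ c.Lall)) {x : G} (hx : x ∈ X) (hxp : (orderOf x).Coprime p)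
    {j : Fin r} (hj : j ≠ i) : c.chi j ⟨x, hXL hx⟩ = 1 := by
  have hxG := hX hx
  rw [← SetLike.mem_coe, coe_mul_of_right_le_normalizer_left _ _
    ((inf_le_right : (S : Subgroup G) ⊓ c.Lall ≤ c.Lall).trans (c.Lall_le_normalizer_L i))] at hxG
  obtain ⟨l, hl, s, hs, e⟩ := hxG
  have e2 : c.chi j ⟨x, hXL hx⟩ = c.chi j ⟨s, hs.2⟩ := by
    rw [show (⟨x, hXL hx⟩ : ↥c.Lall) = ⟨l, c.L_le i hl⟩ * ⟨s, hs.2⟩ from Subtype.ext e.symm, map_mul,
      c.chi_cross (Ne.symm hj) hl, one_mul]
  obtain ⟨k, hk⟩ := S.2 ⟨s, hs.1⟩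
  have hp1 : orderOf (c.chi j ⟨x, hXL hx⟩) ∣ orderOf x := by
    rw [← Subgroup.orderOf_mk x (hXL hx)]; exact orderOf_map_dvd _ _
  refine orderOf_eq_one_iff.1 (Nat.eq_one_of_dvd_coprimes (hxp.pow_right k) hp1 ?_)
  refine orderOf_dvd_of_pow_eq_one ?_
  rw [e2, ← map_pow, show (⟨s, hs.2⟩ : ↥c.Lall) ^ p ^ k = 1 from Subtype.ext (congrArg Subtype.val hk :),
    map_one]

/-- What is read off the coordinates. -/
structure Facts (p : ℕ) (S : Sylow p G) (V X : Subgroup G) (F : Type) [Field F] [Fintype F]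
    (φ : ↥X →* Matrix.SpecialLinearGroup (Fin 2) F) : Prop where
  surj : Function.Surjective φ
  killC : ∀ x : ↥X, (x : G) ∈ centralizer (V : Set G) → φ x = 1
  cop_C : ∀ x : ↥X, (orderOf (x : G)).Coprime p → φ x = 1 → (x : G) ∈ centralizer (V : Set G)
  cop_fix : ∀ z : ↥X, φ z = -1 → ∀ v ∈ V, (z : G) * v * (z : G)⁻¹ = v →
    ∀ x : ↥X, (orderOf (x : G)).Coprime p → ⁅(x : G), v⁆ = 1
  exact : ∀ A : Subgroup G, IsMaxAb (S : Subgroup G) A →
    Nat.card V * Nat.card ↥(A ⊓ centralizer (V : Set G)) = Nat.card A * Nat.card ↥(V ⊓ centralizer (A : Set G))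
  full : ∀ A : Subgroup G, IsMaxAb (S : Subgroup G) A → ∀ a : ↥X, (a : G) ∈ A → φ a ≠ 1 → A ≤ X →
    Nat.card ↥((A.subgroupOf X).map φ) = Fintype.card F
  line : ∃ Vi ≤ V, Nat.card Vi = Fintype.card F * Fintype.card F ∧
    (∀ x : ↥X, φ x = 1 → ∀ v ∈ Vi, (x : G) * v * (x : G)⁻¹ = v) ∧
    ∀ y : ↥X, φ y ≠ 1 → Nat.card ↥(Vi ⊓ centralizer ({(y : G)} : Set G)) ≤ Fintype.card F

theorem exists_facts (hp2 : p ≠ 2) (d : VData p S V) (c : Coord p (S : Subgroup G) V F r) {i : Fin r}
    (hXL : X ≤ c.Lall) (hX : X ≤ c.L i ⊔ ((S : Subgroup G) ⊓ c.Lall))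
    (hs : Function.Surjective ((c.chi i).comp (Subgroup.inclusion hXL)))
    (hall : ∀ A : Subgroup G, IsMaxAb (S : Subgroup G) A → A ≤ c.Lall) :
    Facts p S V X F ((c.chi i).comp (Subgroup.inclusion hXL)) := by
  classical
  have hact : ∀ (x : ↥X) {v : G}, v ∈ V →
      c.π i ((x : G) * v * (x : G)⁻¹) = ((c.chi i (Subgroup.inclusion hXL x) : SL2) : M2) *ᵥ c.π i v :=
    fun x v hv => c.chi_spec i (Subgroup.inclusion hXL x) v hv
  refine ⟨hs, fun x hx => c.chi_C i hx, fun x hxp hx => ?_, fun z hz v hv hzv x hxp => ?_,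
    fun A hA => (c.maxAb_exact d hA (hall A hA)).1, fun A hA a haA ha hAX => ?_, ?_⟩
  · refine c.mem_C_of_chi (g := Subgroup.inclusion hXL x) fun j => ?_
    by_cases hj : j = i
    · rw [hj]; exact hx
    · exact c.chi_other hXL hX x.2 hxp hj
  · have h0 : c.π i v = 0 := by
      have e := hact z hv
      rw [hzv, show c.chi i (Subgroup.inclusion hXL z) = -1 from hz, Matrix.SpecialLinearGroup.coe_neg,
        Matrix.SpecialLinearGroup.coe_one, Matrix.neg_mulVec, Matrix.one_mulVec] at e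
      funext k
      have hk := congrFun e k
      rw [Pi.neg_apply] at hk
      exact (mul_eq_zero.1 (show (2 : F) * c.π i v k = 0 by linear_combination hk)).resolve_left
        (c.two_ne_zero hp2)
    have hm : ⁅(x : G), v⁆ ∈ V := by
      rw [commutatorElement_def]; exact V.mul_mem (c.conjV hv) (V.inv_mem hv)
    have hzero : ∀ j, c.π j ⁅(x : G), v⁆ = 0 := fun j => by
      rw [commutatorElement_def, c.pi_div j (c.conjV hv) hv, c.chi_spec j ⟨(x : G), hXL x.2⟩ v hv]
      by_cases hj : j = i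
      · subst hj; rw [h0, Matrix.mulVec_zero, sub_zero]
      · rw [c.chi_other hXL hX x.2 hxp hj, Matrix.SpecialLinearGroup.coe_one, Matrix.one_mulVec, sub_self]
    have h2 : ⁅(x : G), ⁅(x : G), v⁆⁆ ∈ (⊥ : Subgroup G) := by
      rw [mem_bot, commutatorElement_eq_one_iff_mul_comm]
      exact mem_centralizer_iff.1 ((c.kerAll_iff hm).1 hzero) _ (hXL x.2)
    exact mem_bot.1 (comm_mem_of_twice ((H19.pCore_isPGroup p).to_le d.VQ) hxp hv hm bot_le
      (by rw [show normalizer ((⊥ : Subgroup G) : Set G) = ⊤ from normalizer_eq_top_iff.2 inferInstance]; exact le_top)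
      h2 (by rw [show normalizer ((⊥ : Subgroup G) : Set G) = ⊤ from normalizer_eq_top_iff.2 inferInstance]; exact mem_top _))
  · rw [← (c.maxAb_exact d hA (hall A hA)).2 i a haA (by exact ha)]
    congr 2
    ext m
    constructor
    · rintro ⟨y, hy, rfl⟩; exact ⟨Subgroup.inclusion hXL y, hy, rfl⟩
    · rintro ⟨y, hy, rfl⟩; exact ⟨⟨y, hAX hy⟩, hy, rfl⟩
  · obtain ⟨z, hz, hzi⟩ := c.exists_neg i
    let Vi : Subgroup G :=
      { carrier := {v | v ∈ V ∧ z * v * z⁻¹ = v⁻¹}
        one_mem' := ⟨one_mem _, by simp⟩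
        mul_mem' := by
          rintro a b ⟨ha, ea⟩ ⟨hb, eb⟩
          refine ⟨V.mul_mem ha hb, ?_⟩
          rw [show z * (a * b) * z⁻¹ = (z * a * z⁻¹) * (z * b * z⁻¹) by group, ea, eb, mul_inv_rev,
            c.comm _ (V.inv_mem ha) _ (V.inv_mem hb)]
        inv_mem' := by
          rintro a ⟨ha, ea⟩
          refine ⟨V.inv_mem ha, ?_⟩
          rw [show z * a⁻¹ * z⁻¹ = (z * a * z⁻¹)⁻¹ by group, ea] }
    have hinj : Function.Injective (fun v : Vi => c.π i v.1) := fun v w e => by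
      have hd := Vi.mul_mem v.2 (Vi.inv_mem w.2)
      have h1 := c.lift_unique hp2 hz hd.1 hd.2 (by
        rw [c.pi_div i v.2.1 w.2.1]; exact sub_eq_zero.2 e)
      exact Subtype.ext (mul_inv_eq_one.1 h1)
    have hbij : Function.Bijective (fun v : Vi => c.π i v.1) := ⟨hinj, fun w => by
      obtain ⟨v, hv, hvi, -, hvz⟩ := c.exists_lift hp2 i w
      exact ⟨⟨v, hv, hvz z hz hzi⟩, hvi⟩⟩
    refine ⟨Vi, fun v hv => hv.1, ?_, fun x hx v hv => ?_, fun y hy => ?_⟩
    · rw [Nat.card_eq_of_bijective _ hbij]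
      simp [pow_two]
    · have hm : (x : G) * v * (x : G)⁻¹ ∈ Vi :=
        ⟨c.conjV hv.1, c.neg_invariant hz hzi (hXL x.2) hv.1 hv.2⟩
      refine congrArg Subtype.val (hinj (a₁ := ⟨_, hm⟩) (a₂ := ⟨v, hv⟩) ?_)
      show c.π i _ = c.π i v
      rw [hact x hv.1, show c.chi i (Subgroup.inclusion hXL x) = 1 from hx, Matrix.SpecialLinearGroup.coe_one,
        Matrix.one_mulVec]
    · refine (Nat.card_le_card_of_injective (fun v => (⟨c.π i v.1, ?_⟩ :
        {w : Fin 2 → F // ((c.chi i (Subgroup.inclusion hXL y) : SL2) : M2) *ᵥ w = w})) fun v w e => ?_).trans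
          (card_fixed_le hy)
      · rw [← hact y v.2.1.1, mem_centralizer_singleton_iff.1 v.2.2 |>.symm, mul_inv_cancel_right]
      · have h1 : (⟨v.1, v.2.1⟩ : Vi) = ⟨w.1, w.2.1⟩ := hinj (congrArg Subtype.val e :)
        exact Subtype.ext (congrArg (fun z : Vi => z.1) h1 :)

end Cfsg.Agent.H73.Focal
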