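import Cfsg.Agent.H73.Focal.Alg
import Cfsg.Agent.H75.SL2Natural
import Cfsg.Agent.H1.SylowTwoDim
import Mathlib

/-! Modules of `SL₂` on which the central involution is trivial. -/

set_option autoImplicit false

namespace Cfsg.Agent.H73.Focal

open Cfsg.Agent.H75.SL2Natural (xu yl ww V0 V1 ww_mem_V1 wwinv_mem_V0 exists_natural sl_induction)

universe u

variable {F : Type} [Field F] [Fintype F] {p : ℕ} [Fact p.Prime] [CharP F p]

local notation "SL2" => Matrix.SpecialLinearGroup (Fin 2) F

/-- The transvections are the elements of the upper unitriangular group. -/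
theorem mem_upperUni_iff {m : SL2} : m ∈ H1.upperUni F ↔ ∃ c : F, xu c = m :=
  ⟨fun ⟨c, h⟩ => ⟨Multiplicative.toAdd c, h⟩, fun ⟨c, h⟩ => ⟨Multiplicative.ofAdd c, h⟩⟩

variable {M : Type u} [AddCommGroup M] (ρ : Matrix.SpecialLinearGroup (Fin 2) F →* AddMonoid.End M)

omit [Fintype F] [CharP F p] in
/-- In an odd characteristic a natural module is moved by `-1`. -/
theorem subsingleton_of_natural (hp2 : p ≠ 2) (hA : ∀ a : M, p • a = 0) (hneg : ∀ v : M, ρ (-1) v = v)
    (ψ : M ≃+ (Fin 2 → F)) (h : ∀ g (v : M), ψ (ρ g v) = (g : Matrix (Fin 2) (Fin 2) F).mulVec (ψ v)) :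
    ∀ v : M, v = 0 := fun v => by
  refine eq_zero_of_add_self hp2 hA (ψ.injective ?_)
  have e := h (-1) v
  rw [hneg, Matrix.SpecialLinearGroup.coe_neg, Matrix.SpecialLinearGroup.coe_one, Matrix.neg_mulVec,
    Matrix.one_mulVec] at e
  rw [map_add, map_zero]
  nth_rewrite 1 [e]
  exact neg_add_cancel _

/-- An irreducible module on which the upper unitriangular group is quadratic and `-1` trivial is trivial. -/
theorem trivial_of_quadratic [Finite M] (hp2 : p ≠ 2) (hA : ∀ a : M, p • a = 0) (hneg : ∀ v : M, ρ (-1) v = v)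
    (hirr : ∀ U : AddSubgroup M, (∀ g, ∀ v ∈ U, ρ g v ∈ U) → U = ⊥ ∨ U = ⊤)
    (hq : ∀ c d (v : M), ρ (xu d) (ρ (xu c) v - v) = ρ (xu c) v - v) : ∀ g (v : M), ρ g v = v := by
  by_contra hno
  push Not at hno
  obtain ⟨g, v, hgv⟩ := hno
  obtain ⟨ψ, hψ⟩ := exists_natural ρ hA hirr ⟨g, v, hgv⟩ (Or.inl hq)
  have h0 := subsingleton_of_natural ρ hp2 hA hneg ψ hψ
  exact hgv ((h0 _).trans (h0 v).symm)

/-- Fixed points of all of `SL₂`. -/
def fixAll : AddSubgroup M where
  carrier := {v | ∀ g : SL2, ρ g v = v}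
  zero_mem' _ := map_zero _
  add_mem' ha hb g := by rw [map_add, ha g, hb g]
  neg_mem' ha g := by rw [map_neg, ha g]

/-- A fixed point of the upper unitriangular group which is fixed modulo an invariant subgroup lifts to a
fixed point. -/
theorem exists_fixed_lift [Finite M] (hA : ∀ a : M, p • a = 0) (N : AddSubgroup M) {a : M}
    (ha : ∀ c : F, ρ (xu c) a = a) (htriv : ∀ g, ρ g a - a ∈ N) : ∃ f ∈ fixAll ρ, a - f ∈ N := by
  classical
  haveI : Fintype (SL2 ⧸ H1.upperUni F) := Fintype.ofFinite _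
  let f : SL2 ⧸ H1.upperUni F → M := Quotient.lift (fun g => ρ g a) fun g h hgh => by
    obtain ⟨c, hc⟩ := mem_upperUni_iff.1 (QuotientGroup.leftRel_apply.1 hgh)
    show ρ g a = ρ h a
    rw [show h = g * xu c by rw [hc, mul_inv_cancel_left], ← rho_mul, ha]
  have hf : ∀ g : SL2, f (g : SL2 ⧸ H1.upperUni F) = ρ g a := fun g => rfl
  set s := ∑ q, f q with hs
  have hsfix : s ∈ fixAll ρ := fun g => by
    rw [hs, map_sum]
    refine Fintype.sum_equiv (MulAction.toPerm g) _ _ fun q => ?_
    induction q using QuotientGroup.induction_on with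
    | H m => exact rho_mul ρ g m a
  set k := (H1.upperUni F).index
  have hk : k = Fintype.card (SL2 ⧸ H1.upperUni F) := by
    rw [show k = (H1.upperUni F).index from rfl, Subgroup.index_eq_card, Nat.card_eq_fintype_card]
  have hsub : s - k • a ∈ N := by
    rw [hk, hs, ← Finset.card_univ, ← Finset.sum_const, ← Finset.sum_sub_distrib]
    refine N.sum_mem fun q _ => ?_
    induction q using QuotientGroup.induction_on with
    | H m => exact htriv m
  have hcop : k.Coprime (addOrderOf a) := by
    refine Nat.Coprime.coprime_dvd_right (addOrderOf_dvd_of_nsmul_eq_zero (hA a)) ?_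
    have := (H1.sylowSL (F := F) p).not_dvd_index
    rw [H1.coe_sylowSL] at this
    exact ((Nat.Prime.coprime_iff_not_dvd Fact.out).2 this).symm
  obtain ⟨m, hm⟩ := exists_nsmul_eq_self_of_coprime hcop
  refine ⟨m • s, (fixAll ρ).nsmul_mem hsfix m, ?_⟩
  have : a - m • s = -(m • (s - k • a)) := by
    rw [smul_sub, hm]; abel
  rw [this]
  exact N.neg_mem (N.nsmul_mem hsub m)

/-- A module with `-1` trivial which is the sum of the fixed spaces of two opposite unitriangular groups is
trivial. -/
theorem trivial_of_halves (hp2 : p ≠ 2) : ∀ (n : ℕ) (M : Type u) [AddCommGroup M] [Finite M]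
    (ρ : Matrix.SpecialLinearGroup (Fin 2) F →* AddMonoid.End M), Nat.card M = n → (∀ a : M, p • a = 0) → (∀ v : M, ρ (-1) v = v) →
    (∀ v, ∃ a ∈ V0 ρ, ∃ b ∈ V1 ρ, v = a + b) → ∀ g (v : M), ρ g v = v := by
  intro n
  induction n using Nat.strong_induction_on with
  | _ n ih =>
    intro M _ _ ρ hn hA hneg hdec
    classical
    rcases subsingleton_or_nontrivial M with _ | _
    · exact fun g v => Subsingleton.elim _ _
    have hbt : (⊤ : AddSubgroup M) ≠ ⊥ := by
      intro e
      obtain ⟨v, hv⟩ := exists_ne (0 : M)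
      exact hv (AddSubgroup.mem_bot.1 (e ▸ AddSubgroup.mem_top v))
    obtain ⟨N, ⟨hNne, hNinv⟩, hNmin⟩ := Set.exists_min_image
      {N : AddSubgroup M | N ≠ ⊥ ∧ ∀ g, ∀ v ∈ N, ρ g v ∈ N} (fun N => Nat.card N) (Set.toFinite _)
      ⟨⊤, hbt, fun _ _ _ => AddSubgroup.mem_top _⟩
    -- trivial on the quotient
    have htriv : ∀ g (v : M), ρ g v - v ∈ N := by
      by_cases hNt : N = ⊤
      · intro g v; rw [hNt]; exact AddSubgroup.mem_top _
      let ρ' : SL2 →* AddMonoid.End (M ⧸ N) :=
        { toFun := fun g => QuotientAddGroup.map N N (ρ g) fun v hv => hNinv g v hv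
          map_one' := by
            refine AddMonoidHom.ext fun q => ?_
            induction q using QuotientAddGroup.induction_on with
            | H v => exact congrArg QuotientAddGroup.mk (rho_one ρ v)
          map_mul' := fun g h => by
            refine AddMonoidHom.ext fun q => ?_
            induction q using QuotientAddGroup.induction_on with
            | H v => exact congrArg QuotientAddGroup.mk (rho_mul ρ g h v).symm }
      have hlt : Nat.card (M ⧸ N) < n := by
        rw [← hn, AddSubgroup.card_eq_card_quotient_mul_card_addSubgroup N]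
        have h1 : 1 < Nat.card N := by
          obtain ⟨x, hx, hx0⟩ := (AddSubgroup.bot_or_exists_ne_zero N).resolve_left hNne
          haveI : Nontrivial N := ⟨⟨⟨x, hx⟩, 0, fun e => hx0 (congrArg Subtype.val e)⟩⟩
          exact Finite.one_lt_card
        exact lt_mul_of_one_lt_right Nat.card_pos h1
      have hmk : ∀ g (v : M), ρ' g (v : M ⧸ N) = (ρ g v : M ⧸ N) := fun g v => rfl
      have := ih _ hlt (M ⧸ N) ρ' rfl (fun q => by
          induction q using QuotientAddGroup.induction_on with
          | H v => rw [← QuotientAddGroup.mk_nsmul, hA]; rfl)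
        (fun q => by
          induction q using QuotientAddGroup.induction_on with
          | H v => rw [hmk, hneg])
        (fun q => by
          induction q using QuotientAddGroup.induction_on with
          | H v =>
            obtain ⟨a, ha, b, hb, rfl⟩ := hdec v
            exact ⟨(a : M ⧸ N), fun c => by rw [hmk, ha c], (b : M ⧸ N), fun c => by rw [hmk, hb c], rfl⟩)
      intro g v
      exact (QuotientAddGroup.eq_iff_sub_mem).1 ((hmk g v).symm.trans (this g (v : M ⧸ N)))
    -- decomposition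
    have hlift0 : ∀ a ∈ V0 ρ, ∃ f ∈ fixAll ρ, a - f ∈ N := fun a ha =>
      exists_fixed_lift ρ hA N ha (fun g => htriv g a)
    have hlift1 : ∀ b ∈ V1 ρ, ∃ f ∈ fixAll ρ, b - f ∈ N := fun b hb => by
      obtain ⟨f, hf, hfN⟩ := hlift0 _ (wwinv_mem_V0 ρ hb)
      refine ⟨f, hf, ?_⟩
      have h1 := hNinv ww _ hfN
      rwa [map_sub, hf ww, H75.SL2Natural.act_inv] at h1
    by_cases hNfix : N ≤ fixAll ρ
    · intro g v
      obtain ⟨a, ha, b, hb, rfl⟩ := hdec v
      obtain ⟨f, hf, hfN⟩ := hlift0 a ha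
      obtain ⟨f', hf', hfN'⟩ := hlift1 b hb
      have h1 : a ∈ fixAll ρ := by
        have := (fixAll ρ).add_mem (hNfix hfN) hf
        rwa [sub_add_cancel] at this
      have h2 : b ∈ fixAll ρ := by
        have := (fixAll ρ).add_mem (hNfix hfN') hf'
        rwa [sub_add_cancel] at this
      exact ((fixAll ρ).add_mem h1 h2) g
    exfalso
    have hN0 : N ⊓ fixAll ρ = ⊥ := by
      by_contra hne
      refine hNfix (le_of_eq_of_le (b := N ⊓ fixAll ρ) ?_ inf_le_right)
      exact (AddSubgroup.eq_of_le_of_card_ge inf_le_left (hNmin _ ⟨hne, fun g v hv =>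
        ⟨hNinv g v hv.1, by rw [hv.2 g]; exact hv.2⟩⟩)).symm
    let ρN : SL2 →* AddMonoid.End N :=
      { toFun := fun g => AddMonoidHom.mk' (fun v => ⟨ρ g v, hNinv g v v.2⟩)
          fun v w => Subtype.ext (map_add (ρ g) (v : M) (w : M))
        map_one' := AddMonoidHom.ext fun v => Subtype.ext (rho_one ρ (v : M))
        map_mul' := fun g h => AddMonoidHom.ext fun v => Subtype.ext (rho_mul ρ g h (v : M)).symm }
    have hirr : ∀ U : AddSubgroup N, (∀ g, ∀ v ∈ U, ρN g v ∈ U) → U = ⊥ ∨ U = ⊤ := by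
      intro U hU
      by_cases hb : U = ⊥
      · exact Or.inl hb
      refine Or.inr (eq_top_iff.2 fun v _ => ?_)
      have h1 := AddSubgroup.eq_of_le_of_card_ge (show U.map N.subtype ≤ N from fun x hx => by
        obtain ⟨y, -, rfl⟩ := hx; exact y.2) (hNmin _ ⟨fun e => hb ((AddSubgroup.map_eq_bot_iff_of_injective U
          N.subtype_injective).1 e), fun g x hx => by
            obtain ⟨y, hy, rfl⟩ := hx
            exact ⟨ρN g y, hU g y hy, rfl⟩⟩)
      obtain ⟨w, hw, e⟩ := (h1.ge v.2 : (v : M) ∈ U.map N.subtype)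
      exact (Subtype.ext e : w = v) ▸ hw
    have hnt : ∃ g, ∃ v : N, ρN g v ≠ v := by
      by_contra hno
      push Not at hno
      exact hNfix fun v hv g => congrArg Subtype.val (hno g ⟨v, hv⟩)
    -- fixed points of opposite groups generate `N`
    let C := {v : N // ∀ c, ρN (xu c) v = v}
    let D := {v : N // ∀ c, ρN (yl c) v = v}
    have hsum : ∀ v : N, ∃ (a : C) (b : D), a.1 + b.1 = v := fun v => by
      obtain ⟨a, ha, b, hb, e⟩ := hdec v
      obtain ⟨f, hf, hfN⟩ := hlift0 a ha
      obtain ⟨f', hf', hfN'⟩ := hlift1 b hb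
      have h1 : (v : M) - (a - f) - (b - f') ∈ N ⊓ fixAll ρ := by
        refine ⟨N.sub_mem (N.sub_mem v.2 hfN) hfN', ?_⟩
        rw [e, show a + b - (a - f) - (b - f') = f + f' by abel]
        exact (fixAll ρ).add_mem hf hf'
      rw [hN0, AddSubgroup.mem_bot, sub_sub, sub_eq_zero] at h1
      refine ⟨⟨⟨a - f, hfN⟩, fun c => Subtype.ext ?_⟩, ⟨⟨b - f', hfN'⟩, fun c => Subtype.ext ?_⟩,
        Subtype.ext h1.symm⟩
      · show ρ (xu c) (a - f) = a - f
        rw [map_sub, ha c, hf]
      · show ρ (yl c) (b - f') = b - f'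
        rw [map_sub, hb c, hf']
    choose fa fb hab using hsum
    have h1 : Nat.card N ≤ Nat.card C * Nat.card D := by
      rw [← Nat.card_prod]
      refine Nat.card_le_card_of_injective (fun v => (fa v, fb v)) fun v w e => ?_
      simp only [Prod.mk.injEq] at e
      rw [← hab v, ← hab w, e.1, e.2]
    have h2 : Nat.card D ≤ Nat.card C := by
      refine Nat.card_le_card_of_injective
        (fun d => (⟨ρN ww⁻¹ d.1, wwinv_mem_V0 ρN d.2⟩ : C)) fun d d' e => Subtype.ext ?_
      have := congrArg (fun c : C => ρN ww c.1) e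
      simpa only [H75.SL2Natural.act_inv] using this
    obtain ⟨ψ, hψ⟩ := exists_natural ρN (fun v => Subtype.ext (hA (v : M))) hirr hnt
      (Or.inr (h1.trans (by rw [pow_two]; exact Nat.mul_le_mul_left _ h2)))
    obtain ⟨g, v, hgv⟩ := hnt
    have h0 := subsingleton_of_natural ρN hp2 (fun v => Subtype.ext (hA (v : M)))
      (fun v => Subtype.ext (hneg (v : M))) ψ hψ
    exact hgv ((h0 _).trans (h0 v).symm)

end Cfsg.Agent.H73.Focal
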