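import Cfsg.Agent.H73.Focal.Offend
import Cfsg.Agent.H73.Focal.Chi
import Mathlib

/-! `Ω₁Z(S)` is not central when neither `Z(S)` nor `Z(J(S))` is normal. -/

set_option autoImplicit false
set_option linter.style.haveILetI false
set_option maxHeartbeats 1000000

namespace Cfsg.Agent.H73.Focal

open Subgroup
open Cfsg.Agent.H72 (IsMaxAb)
open scoped commutatorElement Matrix

universe u

variable {G : Type u} [Group G] [Finite G] {p : ℕ} [Fact p.Prime]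

theorem card_map_mul {Q : Type*} [Group Q] (f : G →* Q) (H : Subgroup G) :
    Nat.card ↥(H.map f) * Nat.card ↥(H ⊓ f.ker) = Nat.card H := by
  let g : ↥H →* Q := f.comp H.subtype
  have h1 : Nat.card g.ker = Nat.card ↥(H ⊓ f.ker) := Nat.card_congr
    { toFun := fun x => ⟨((x : ↥H) : G), (x : ↥H).2, x.2⟩
      invFun := fun x => ⟨⟨x, x.2.1⟩, x.2.2⟩
      left_inv := fun x => rfl
      right_inv := fun x => rfl }
  have h2 : g.range = H.map f := by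
    ext y
    exact ⟨fun ⟨x, e⟩ => ⟨x, x.2, e⟩, fun ⟨x, hx, e⟩ => ⟨⟨x, hx⟩, e⟩⟩
  rw [← g.ker.card_mul_index, h1, Subgroup.index_ker, h2, mul_comm]

variable {S : Sylow p G} {M : Subgroup G}

/-- A conjugate of an element of `Z(S)` differing from it by a central `p`-element equals it. -/
theorem eq_of_conj_central {x g : G} {Zc : Subgroup G} (hZc : Zc ≤ Subgroup.center G) (hZp : IsPGroup p Zc)
    (hxS : x ∈ centralizer ((S : Subgroup G) : Set G)) (hg : ⁅x, g⁆ ∈ Zc) : g * x = x * g := by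
  have hmul : ∀ a b : G, ⁅x, b⁆ ∈ Zc → ⁅x, a * b⁆ = ⁅x, a⁆ * ⁅x, b⁆ := fun a b hb => by
    have hc : a * ⁅x, b⁆ * a⁻¹ = ⁅x, b⁆ := by
      rw [Subgroup.mem_center_iff.1 (hZc hb) a, mul_inv_cancel_right]
    calc ⁅x, a * b⁆ = ⁅x, a⁆ * (a * ⁅x, b⁆ * a⁻¹) := by simp only [commutatorElement_def]; group
      _ = _ := by rw [hc]
  let H : Subgroup G :=
    { carrier := {h | ⁅x, h⁆ ∈ Zc}
      one_mem' := by show ⁅x, (1 : G)⁆ ∈ Zc; rw [commutatorElement_one_right]; exact one_mem _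
      mul_mem' := fun {a b} ha hb => by
        show ⁅x, a * b⁆ ∈ Zc
        rw [hmul a b hb]; exact Zc.mul_mem ha hb
      inv_mem' := fun {a} ha => by
        show ⁅x, a⁻¹⁆ ∈ Zc
        rw [show ⁅x, a⁻¹⁆ = a⁻¹ * ⁅x, a⁆⁻¹ * a by simp only [commutatorElement_def]; group,
          Subgroup.mem_center_iff.1 (hZc (Zc.inv_mem ha)) a⁻¹, inv_mul_cancel_right]
        exact Zc.inv_mem ha }
  have hmem : ∀ h, h ∈ H ↔ ⁅x, h⁆ ∈ Zc := fun h => Iff.rfl
  let f : ↥H →* ↥Zc := MonoidHom.mk' (fun h => ⟨⁅x, (h : G)⁆, (hmem h).1 h.2⟩) fun a b => Subtype.ext (by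
    show ⁅x, (a : G) * b⁆ = ⁅x, (a : G)⁆ * ⁅x, (b : G)⁆
    have hc : (a : G) * ⁅x, (b : G)⁆ * (a : G)⁻¹ = ⁅x, (b : G)⁆ := by
      rw [Subgroup.mem_center_iff.1 (hZc ((hmem b).1 b.2)) (a : G), mul_inv_cancel_right]
    calc ⁅x, (a : G) * b⁆ = ⁅x, (a : G)⁆ * ((a : G) * ⁅x, (b : G)⁆ * (a : G)⁻¹) := by
          simp only [commutatorElement_def]; group
      _ = _ := by rw [hc])
  have hSH : (S : Subgroup G) ≤ H := fun s hs => (hmem s).2 (by
    rw [commutatorElement_eq_one_iff_mul_comm.2 (mem_centralizer_iff.1 hxS s hs).symm]; exact one_mem _)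
  have hker : ((S : Subgroup G).subgroupOf H) ≤ f.ker := fun s hs => Subtype.ext
    (commutatorElement_eq_one_iff_mul_comm.2 (mem_centralizer_iff.1 hxS (s : G) hs).symm)
  have h1 : ¬ p ∣ f.ker.index := fun hd => S.not_dvd_index
    ((hd.trans (Subgroup.index_dvd_of_le hker)).trans (Subgroup.relIndex_dvd_index_of_le hSH))
  obtain ⟨k, hk⟩ := IsPGroup.iff_card.1 (hZp.to_subgroup f.range)
  have hrange : Nat.card f.range = 1 := by
    rcases k with _ | k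
    · simpa using hk
    · refine absurd ?_ h1
      rw [Subgroup.index_ker, hk]
      exact dvd_pow_self p (Nat.succ_ne_zero k)
  have h2 : f ⟨g, (hmem g).2 hg⟩ = 1 := by
    have := Subgroup.eq_bot_of_card_eq f.range hrange
    exact mem_bot.1 (this ▸ (⟨_, rfl⟩ : f ⟨g, (hmem g).2 hg⟩ ∈ f.range))
  exact (commutatorElement_eq_one_iff_mul_comm.1 (congrArg Subtype.val h2 : ⁅x, g⁆ = 1)).symm

/-- An element of order `p` in `Z(S)` which is not central. -/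
theorem exists_noncentral (hp2 : p ≠ 2) (hC : centralizer (Cfsg.pCore p G : Set G) ≤ Cfsg.pCore p G)
    (hM : M ≠ ⊤) (hmax : ∀ H : Subgroup G, (S : Subgroup G) ≤ H → H ≠ ⊤ → H ≤ M)
    (hZ : ¬ ((S : Subgroup G) ⊓ centralizer ((S : Subgroup G) : Set G)).Normal)
    (hzj : ¬ (Cfsg.centerThompsonAOf (S : Subgroup G)).Normal) :
    ∃ z ∈ (S : Subgroup G), z ∈ centralizer ((S : Subgroup G) : Set G) ∧ z ^ p = 1 ∧
      z ∉ centralizer ((⊤ : Subgroup G) : Set G) := by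
  classical
  set S₀ : Subgroup G := (S : Subgroup G)
  haveI := H19.pCore_normal p G
  set Q := Cfsg.pCore p G
  have hQS : Q ≤ S₀ := IsPGroup.le_sylow_of_normal (H19.pCore_isPGroup p) S
  have hne : ({y | y ∈ S₀ ∧ y ∈ centralizer (S₀ : Set G) ∧ y ∉ Subgroup.center G} : Set G).Nonempty := by
    by_contra hno
    refine hZ ⟨fun y hy g => ?_⟩
    have hc : y ∈ Subgroup.center G := by
      by_contra h; exact hno ⟨y, hy.1, hy.2, h⟩
    rwa [Subgroup.mem_center_iff.1 hc g, mul_inv_cancel_right]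
  obtain ⟨x, ⟨hxS, hxc, hxn⟩, hxmin⟩ := Set.exists_min_image _ (fun y : G => orderOf y) (Set.toFinite _) hne
  have hxp : x ^ p ∈ Subgroup.center G := by
    by_contra hxp
    have hx1 : orderOf x ≠ 1 := fun e => hxn (orderOf_eq_one_iff.1 e ▸ one_mem _)
    obtain ⟨k, hk⟩ := IsPGroup.iff_orderOf.1 S.2 ⟨x, hxS⟩
    rw [Subgroup.orderOf_mk] at hk
    rcases k with _ | k
    · exact hx1 (by simpa using hk)
    have h := hxmin _ ⟨pow_mem hxS p, pow_mem hxc p, hxp⟩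
    rw [orderOf_pow' x (Fact.out : p.Prime).ne_zero, hk, Nat.gcd_eq_right (dvd_pow_self p (Nat.succ_ne_zero k))] at h
    exact absurd h (not_le.2 (Nat.div_lt_self (pow_pos (Fact.out : p.Prime).pos _) (Fact.out : p.Prime).one_lt))
  set W := Q ⊓ centralizer (Q : Set G)
  haveI : W.Normal := inferInstance
  have hWc : ∀ a ∈ W, ∀ b ∈ W, a * b = b * a := fun a ha b hb => mem_centralizer_iff.1 hb.2 a ha.1
  have hxW : x ∈ W := by
    have hxC : x ∈ centralizer (Q : Set G) := centralizer_le (SetLike.coe_subset_coe.2 hQS) hxc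
    exact ⟨hC hxC, hxC⟩
  set Zc := W ⊓ Subgroup.center G
  haveI : Zc.Normal := inferInstance
  have hZcz : Zc ≤ Subgroup.center G := inf_le_right
  have hZcp : IsPGroup p Zc := (H19.pCore_isPGroup p).to_le (inf_le_left.trans inf_le_left)
  set X₁ := normalClosure ({x} : Set G) ⊔ Zc
  haveI : (normalClosure ({x} : Set G)).Normal := normalClosure_normal
  haveI hX₁n : X₁.Normal := inferInstance
  have hX₁W : X₁ ≤ W := sup_le (normalClosure_le_normal (Set.singleton_subset_iff.2 hxW)) inf_le_left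
  have hxX₁ : x ∈ X₁ := mem_sup_left (subset_normalClosure rfl)
  have hX₁c : ∀ a ∈ X₁, ∀ b ∈ X₁, a * b = b * a := fun a ha b hb => hWc a (hX₁W ha) b (hX₁W hb)
  let Pp : Subgroup G :=
    { carrier := {w | w ∈ W ∧ w ^ p ∈ Zc}
      one_mem' := ⟨one_mem _, by rw [one_pow]; exact one_mem _⟩
      mul_mem' := fun {a b} ha hb => ⟨mul_mem ha.1 hb.1, by
        rw [(show Commute a b from hWc a ha.1 b hb.1).mul_pow]; exact mul_mem ha.2 hb.2⟩
      inv_mem' := fun {a} ha => ⟨inv_mem ha.1, by rw [inv_pow]; exact inv_mem ha.2⟩ }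
  haveI : Pp.Normal := ⟨fun a ha g => ⟨(inferInstance : W.Normal).conj_mem a ha.1 g, by
    rw [conj_pow]; exact (inferInstance : Zc.Normal).conj_mem _ ha.2 g⟩⟩
  have hX₁p : ∀ v ∈ X₁, v ^ p ∈ Zc := fun v hv =>
    ((sup_le (normalClosure_le_normal (Set.singleton_subset_iff.2 (show x ∈ Pp from
      ⟨hxW, pow_mem hxW p, hxp⟩))) (fun w hw => show w ∈ Pp from ⟨hw.1, pow_mem hw p⟩) : X₁ ≤ Pp) hv).2
  set C₁ := centralizer (X₁ : Set G)
  haveI : C₁.Normal := inferInstance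
  have hQC₁ : Q ≤ C₁ := le_centralizer_iff.1 (hX₁W.trans inf_le_right)
  have hC₁ : ∀ g, (∀ v ∈ X₁, ⁅v, g⁆ ∈ Zc) → g ∈ C₁ := by
    intro g hg
    refine (le_centralizer_iff.1 (?_ : X₁ ≤ centralizer ((zpowers g : Subgroup G) : Set G))) (mem_zpowers g)
    have hle : ∀ v ∈ X₁, v * g = g * v → v ∈ centralizer ((zpowers g : Subgroup G) : Set G) := fun v _ hv =>
      mem_centralizer_iff.2 (by
        rintro _ ⟨n, rfl⟩
        exact ((show Commute g v from hv.symm).zpow_left n).eq)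
    refine sup_le ((closure_le _).2 ?_) fun w hw => hle w (mem_sup_right hw) (Subgroup.mem_center_iff.1 hw.2 g).symm
    intro y hy
    obtain ⟨a, ha, hay⟩ := Group.mem_conjugatesOfSet_iff.1 hy
    obtain ⟨h, rfl⟩ := isConj_iff.1 hay
    rw [Set.mem_singleton_iff] at ha
    subst ha
    have hyX : h * a * h⁻¹ ∈ X₁ := hX₁n.conj_mem a hxX₁ h
    refine hle _ hyX ?_
    have h1 := (inferInstance : Zc.Normal).conj_mem _ (hg _ hyX) h⁻¹
    have h2 := eq_of_conj_central (g := h⁻¹ * g * h) hZcz hZcp hxc (by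
      simpa [commutatorElement_def, mul_assoc] using h1)
    calc h * a * h⁻¹ * g = h * (a * (h⁻¹ * g * h)) * h⁻¹ := by group
      _ = h * ((h⁻¹ * g * h) * a) * h⁻¹ := by rw [h2]
      _ = g * (h * a * h⁻¹) := by group
  have hCS : C₁ ⊔ S₀ ≠ ⊤ := fun e => hxn (Subgroup.mem_center_iff.2 fun g => by
    have hle : C₁ ⊔ S₀ ≤ centralizer ({x} : Set G) := sup_le
      (centralizer_le (Set.singleton_subset_iff.2 hxX₁)) fun s hs =>
        mem_centralizer_singleton_iff.2 (mem_centralizer_iff.1 hxc s hs)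
    exact mem_centralizer_singleton_iff.1 (hle (e ▸ mem_top g)))
  obtain ⟨A, hA, hAn⟩ : ∃ A, IsMaxAb S₀ A ∧ ¬ A ≤ C₁ := by
    by_contra hno
    push Not at hno
    have hJQ : Cfsg.thompsonSubgroupAOf S₀ ≤ Q := by
      rw [H72.thompsonSubgroupAOf_eq]
      exact sSup_le fun A hA => (le_inf hA.1 (hno A hA)).trans (inf_le_pCore' hM hmax hCS)
    have hn : (Cfsg.thompsonSubgroupAOf S₀).Normal := by
      rw [← H72.thompsonSubgroupAOf_eq_of_le hQS hJQ, ← normalizer_eq_top_iff, ← top_le_iff]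
      exact (normalizer_eq_top_iff.2 (inferInstance : Q.Normal)).ge.trans
        (H72.normalizer_le_normalizer_thompsonSubgroupAOf Q)
    haveI := hn
    exact hzj (inferInstanceAs (Cfsg.thompsonSubgroupAOf S₀ ⊓
      centralizer ((Cfsg.thompsonSubgroupAOf S₀ : Subgroup G) : Set G)).Normal)
  obtain ⟨B, hBA, hBe, hBn, -, hBl⟩ := exists_quadratic' hX₁n hX₁c (hX₁W.trans inf_le_left)
    (fun v hv => (hX₁p v hv).2) hA hAn
  -- modulo the centre
  set π := QuotientGroup.mk' Zc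
  have hπs : Function.Surjective π := QuotientGroup.mk'_surjective Zc
  have hπker : π.ker = Zc := QuotientGroup.ker_mk' Zc
  set Vb := X₁.map π
  haveI : Vb.Normal := hX₁n.map π hπs
  set Sq := S.mapSurjective hπs
  have hSq : (Sq : Subgroup (G ⧸ Zc)) = S₀.map π := Sylow.coe_mapSurjective hπs S
  have hCmap : ∀ g, π g ∈ centralizer (Vb : Set (G ⧸ Zc)) ↔ g ∈ C₁ := by
    intro g
    constructor
    · intro hg
      refine hC₁ g fun v hv => ?_
      rw [← hπker, MonoidHom.mem_ker, map_commutatorElement, commutatorElement_eq_one_iff_mul_comm]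
      exact mem_centralizer_iff.1 hg _ (mem_map_of_mem π hv)
    · intro hg
      rw [mem_centralizer_iff]
      rintro _ ⟨v, hv, rfl⟩
      rw [← map_mul, ← map_mul, mem_centralizer_iff.1 hg v hv]
  have hSM : S₀ ≤ M := le_sup_right.trans (hmax _ le_sup_right hCS)
  have hZcM : Zc ≤ M := ((inf_le_left.trans inf_le_left).trans hQS).trans hSM
  have hcomap : (M.map π).comap π = M := by rw [comap_map_eq, hπker, sup_of_le_left hZcM]
  have hMq : M.map π ≠ ⊤ := fun e => hM (by rw [← hcomap, e, comap_top])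
  have hmaxq : ∀ H : Subgroup (G ⧸ Zc), (Sq : Subgroup (G ⧸ Zc)) ≤ H → H ≠ ⊤ → H ≤ M.map π := by
    intro H hH hne y hy
    obtain ⟨g, rfl⟩ := hπs y
    refine mem_map_of_mem π (hmax (H.comap π) (map_le_iff_le_comap.1 (hSq ▸ hH)) (fun e => hne ?_) hy)
    rw [← map_comap_eq_self_of_surjective hπs H, e, map_top_of_surjective π hπs]
  have hCSq : centralizer (Vb : Set (G ⧸ Zc)) ⊔ (Sq : Subgroup (G ⧸ Zc)) ≠ ⊤ := by
    intro e
    refine hCS (top_le_iff.1 fun g _ => ?_)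
    have hle : centralizer (Vb : Set (G ⧸ Zc)) ⊔ (Sq : Subgroup (G ⧸ Zc)) ≤ (C₁ ⊔ S₀).map π := by
      refine sup_le (fun y hy => ?_) (hSq ▸ map_mono le_sup_right)
      obtain ⟨a, rfl⟩ := hπs y
      exact mem_map_of_mem π (mem_sup_left ((hCmap a).1 hy))
    obtain ⟨a, ha, ea⟩ := hle (e ▸ mem_top (π g))
    have hd : a⁻¹ * g ∈ Zc := QuotientGroup.eq.1 ea
    have := mul_mem ha (mem_sup_left (hQC₁ hd.1.1) : _ ∈ C₁ ⊔ S₀)
    rwa [mul_inv_cancel_left] at this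
  have hop1 : ∀ D : Subgroup (G ⧸ Zc), D.Normal →
      (∀ g ∈ D, ∃ k : ℕ, g ^ p ^ k ∈ centralizer (Vb : Set (G ⧸ Zc))) → D ≤ centralizer (Vb : Set (G ⧸ Zc)) := by
    intro D hDn hD y hy
    obtain ⟨g, rfl⟩ := hπs y
    haveI := hDn.comap π
    refine (hCmap g).2 (op1_of (C := C₁) (D := D.comap π) hM hmax hQC₁ hCS (fun d hd => ?_) hy)
    obtain ⟨k, hk⟩ := hD _ hd
    exact ⟨k, (hCmap _).1 (by rwa [map_pow])⟩
  have hzV : π x ∈ Vb := mem_map_of_mem π hxX₁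
  have hzS : π x ∈ centralizer ((Sq : Subgroup (G ⧸ Zc)) : Set (G ⧸ Zc)) := by
    rw [hSq, mem_centralizer_iff]
    rintro _ ⟨s, hs, rfl⟩
    rw [← map_mul, ← map_mul, mem_centralizer_iff.1 hxc s hs]
  have hzn : π x ∉ centralizer ((⊤ : Subgroup (G ⧸ Zc)) : Set (G ⧸ Zc)) := fun h =>
    hxn (Subgroup.mem_center_iff.2 fun g => eq_of_conj_central hZcz hZcp hxc (by
      rw [← hπker, MonoidHom.mem_ker, map_commutatorElement, commutatorElement_eq_one_iff_mul_comm]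
      exact (mem_centralizer_iff.1 h (π g) (mem_top _)).symm))
  have hBl' : Nat.card Vb * Nat.card ↥(B.map π ⊓ centralizer (Vb : Set (G ⧸ Zc))) ≤
      Nat.card ↥(B.map π) * Nat.card ↥(Vb ⊓ centralizer ((B.map π : Subgroup (G ⧸ Zc)) : Set (G ⧸ Zc))) := by
    have e1 : B.map π ⊓ centralizer (Vb : Set (G ⧸ Zc)) = (B ⊓ C₁).map π := le_antisymm
      (by rintro _ ⟨⟨b, hb, rfl⟩, hc⟩; exact ⟨b, ⟨hb, (hCmap b).1 hc⟩, rfl⟩)
      (by rintro _ ⟨b, hb, rfl⟩; exact ⟨mem_map_of_mem π hb.1, (hCmap b).2 hb.2⟩)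
    have hZX : Zc ≤ X₁ ⊓ centralizer (B : Set G) := fun w hw => ⟨mem_sup_right hw,
      mem_centralizer_iff.2 fun b _ => Subgroup.mem_center_iff.1 hw.2 b⟩
    have hle : (X₁ ⊓ centralizer (B : Set G)).map π ≤
        Vb ⊓ centralizer ((B.map π : Subgroup (G ⧸ Zc)) : Set (G ⧸ Zc)) := by
      rintro _ ⟨v, hv, rfl⟩
      refine ⟨mem_map_of_mem π hv.1, mem_centralizer_iff.2 ?_⟩
      rintro _ ⟨b, hb, rfl⟩
      rw [← map_mul, ← map_mul, mem_centralizer_iff.1 hv.2 b hb]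
    have hZC : Zc ≤ C₁ := fun w hw => mem_centralizer_iff.2 fun v _ => Subgroup.mem_center_iff.1 hw.2 v
    refine le_trans ?_ (Nat.mul_le_mul_left _ (card_le_of_le hle))
    have m1 := card_map_mul π X₁
    have m2 := card_map_mul π B
    have m3 := card_map_mul π (B ⊓ C₁)
    have m4 := card_map_mul π (X₁ ⊓ centralizer (B : Set G))
    rw [hπker, inf_eq_right.2 le_sup_right] at m1
    rw [hπker] at m2
    rw [hπker, inf_assoc, inf_eq_right.2 hZC] at m3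
    rw [hπker, inf_eq_right.2 hZX] at m4
    rw [e1]
    refine Nat.le_of_mul_le_mul_right (c := Nat.card Zc * Nat.card ↥(B ⊓ Zc)) ?_ (Nat.mul_pos Nat.card_pos Nat.card_pos)
    calc _ = (Nat.card Vb * Nat.card Zc) * (Nat.card ↥((B ⊓ C₁).map π) * Nat.card ↥(B ⊓ Zc)) := by ring
      _ = Nat.card X₁ * Nat.card ↥(B ⊓ C₁) := by rw [m1, m3]
      _ ≤ Nat.card B * Nat.card ↥(X₁ ⊓ centralizer (B : Set G)) := hBl
      _ = (Nat.card ↥(B.map π) * Nat.card ↥(B ⊓ Zc)) *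
          (Nat.card ↥((X₁ ⊓ centralizer (B : Set G)).map π) * Nat.card Zc) := by rw [m2, m4]
      _ = _ := by ring
  obtain ⟨r, F, iF, iF', n, hn, hcard, ⟨c⟩⟩ := exists_coord hp2 Sq Vb
    (by rintro _ ⟨a, ha, rfl⟩ _ ⟨b, hb, rfl⟩; rw [← map_mul, ← map_mul, hX₁c a ha b hb])
    (by
      rintro _ ⟨a, ha, rfl⟩
      rw [← map_pow]
      exact (QuotientGroup.eq_one_iff _).2 (hX₁p a ha))
    (M.map π) hMq hmaxq hCSq hop1 hzV hzS hzn (B := B.map π) (hSq ▸ map_mono (hBA.trans hA.1))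
    (by
      rintro _ ⟨a, ha, rfl⟩ _ ⟨b, hb, rfl⟩
      rw [← map_commutatorElement, commutatorElement_eq_one_iff_mul_comm.2 (hA.2.1 a (hBA ha) b (hBA hb)).eq,
        map_one]
      exact one_mem _)
    (by rintro _ ⟨a, ha, rfl⟩; rw [← map_pow]; exact (hCmap _).2 (hBe a ha))
    (fun h => hBn fun b hb => (hCmap b).1 (h (mem_map_of_mem π hb))) hBl'
  haveI : CharP F p := H72.charP_of_card hcard
  have h2 := c.two_ne_zero hp2
  obtain ⟨t, ht, hta⟩ := c.exists_Lall fun _ => -1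
  have hta' : ∀ i, ∀ v ∈ Vb, c.π i (t * v * t⁻¹) = -c.π i v := fun i v hv => by
    rw [hta i v hv, Matrix.SpecialLinearGroup.coe_neg, Matrix.SpecialLinearGroup.coe_one, Matrix.neg_mulVec,
      Matrix.one_mulVec]
  have htt : ∀ v ∈ Vb, t * (t * v * t⁻¹) * t⁻¹ = v := fun v hv => by
    have hc : t * t ∈ centralizer (Vb : Set (G ⧸ Zc)) := c.mem_C_of fun i => by
      simpa using c.acts_mul (hta i) (hta i)
    rw [show t * (t * v * t⁻¹) * t⁻¹ = (t * t) * v * (t * t)⁻¹ by group, ← mem_centralizer_iff.1 hc v hv,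
      mul_inv_cancel_right]
  have hts : ∀ s ∈ (Sq : Subgroup (G ⧸ Zc)), (s * t * s⁻¹) * t⁻¹ ∈ centralizer (Vb : Set (G ⧸ Zc)) := by
    intro s hs
    refine c.mem_C_of fun j => ?_
    intro v hv
    rw [Matrix.one_mulVec]
    have hv₁ : t⁻¹ * v * t⁻¹⁻¹ ∈ Vb := c.conjV hv
    set v₁ := t⁻¹ * v * t⁻¹⁻¹
    set v₂ := s⁻¹ * v₁ * s⁻¹⁻¹
    have hv₂ : v₂ ∈ Vb := c.conjV hv₁
    have hw : ∀ i, c.π i (t * v₂ * t⁻¹ * v₂) = 0 := fun i => by
      rw [c.πmul i _ (c.conjV hv₂) _ hv₂, hta' i v₂ hv₂, neg_add_cancel]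
    obtain ⟨i, hi⟩ := c.perm s⁻¹ (inv_mem hs) j
    have hi' : H34.MinOffender.cj s (c.L i) = c.L j := by
      rw [← hi, ← H34.MinOffender.cj_mul, mul_inv_cancel, H34.MinOffender.cj_one]
    have h0 := (c.ker_conj hi' (Vb.mul_mem (c.conjV hv₂) hv₂)).2 (hw i)
    rw [show s * (t * v₂ * t⁻¹ * v₂) * s⁻¹ = (s * t * s⁻¹ * t⁻¹) * v * (s * t * s⁻¹ * t⁻¹)⁻¹ * v₁ by
      simp only [v₁, v₂]; group, c.πmul j _ (c.conjV hv) _ hv₁] at h0
    have h1 := hta' j v₁ hv₁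
    rw [show t * v₁ * t⁻¹ = v by simp only [v₁]; group] at h1
    rw [h1]
    exact eq_neg_of_add_eq_zero_left h0
  let N : Subgroup (G ⧸ Zc) :=
    { carrier := {v | v ∈ Vb ∧ t * v * t⁻¹ = v⁻¹}
      one_mem' := ⟨one_mem _, by simp⟩
      mul_mem' := by
        rintro a b ⟨ha, ea⟩ ⟨hb, eb⟩
        refine ⟨Vb.mul_mem ha hb, ?_⟩
        rw [show t * (a * b) * t⁻¹ = (t * a * t⁻¹) * (t * b * t⁻¹) by group, ea, eb, mul_inv_rev,
          c.comm _ (Vb.inv_mem ha) _ (Vb.inv_mem hb)]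
      inv_mem' := by
        rintro a ⟨ha, ea⟩
        refine ⟨Vb.inv_mem ha, ?_⟩
        rw [show t * a⁻¹ * t⁻¹ = (t * a * t⁻¹)⁻¹ by group, ea] }
  have hNne : N ≠ ⊥ := by
    obtain ⟨v, hv, hvi, -⟩ := c.surj ⟨0, c.hr⟩ (Pi.single 0 1)
    intro e
    have hw : v * (t * v * t⁻¹)⁻¹ ∈ N := by
      refine ⟨Vb.mul_mem hv (Vb.inv_mem (c.conjV hv)), ?_⟩
      rw [show t * (v * (t * v * t⁻¹)⁻¹) * t⁻¹ = (t * v * t⁻¹) * (t * (t * v * t⁻¹) * t⁻¹)⁻¹ by group, htt v hv]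
      group
    rw [e, mem_bot] at hw
    have h0 := congrArg (c.π ⟨0, c.hr⟩) hw
    rw [c.pi_div _ hv (c.conjV hv), hta' _ v hv, c.pi_one, hvi, sub_neg_eq_add] at h0
    have := congrFun h0 0
    simp only [Pi.add_apply, Pi.single_eq_same, Pi.zero_apply] at this
    exact h2 (by linear_combination this)
  have hNS : (Sq : Subgroup (G ⧸ Zc)) ≤ normalizer (N : Set (G ⧸ Zc)) := fun s hs =>
    mem_normalizer_iff_map_conj_eq.2 (eq_of_le_of_card_ge (by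
      rintro _ ⟨v, ⟨hv, ev⟩, rfl⟩
      refine ⟨c.conjV hv, ?_⟩
      show t * (s * v * s⁻¹) * t⁻¹ = (s * v * s⁻¹)⁻¹
      have hd := hts s⁻¹ (inv_mem hs)
      have hv' : t * v * t⁻¹ ∈ Vb := c.conjV hv
      have e1 : (s⁻¹ * t * s⁻¹⁻¹) * v * (s⁻¹ * t * s⁻¹⁻¹)⁻¹ = t * v * t⁻¹ := by
        conv_rhs => rw [← mul_inv_cancel_right (t * v * t⁻¹) (s⁻¹ * t * s⁻¹⁻¹ * t⁻¹),
          mem_centralizer_iff.1 hd _ hv']
        group
      rw [show t * (s * v * s⁻¹) * t⁻¹ = s * ((s⁻¹ * t * s⁻¹⁻¹) * v * (s⁻¹ * t * s⁻¹⁻¹)⁻¹) * s⁻¹ by group,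
        e1, ev]
      group) (card_map_of_injective (MulAut.conj s).injective).ge)
  obtain ⟨v₀, hv₀, hv₀1, hv₀S⟩ := H34.Para.exists_fixed_ne_one Sq.2 hNS (fun v hv => c.expV v hv.1) hNne
  obtain ⟨y, hy, rfl⟩ := hv₀.1
  obtain ⟨t₀, rfl⟩ := hπs t
  have hy' : t₀ * y * t₀⁻¹ ∈ X₁ := hX₁n.conj_mem y hy t₀
  set u := y * (t₀ * y * t₀⁻¹)⁻¹ with hudef
  have huX : u ∈ X₁ := X₁.mul_mem hy (X₁.inv_mem hy')
  have hπu : π u = π y * π y := by
    rw [hudef, map_mul, map_inv, map_mul, map_mul, map_inv, hv₀.2, inv_inv]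
  refine ⟨u, hQS (hX₁W huX).1, mem_centralizer_iff.2 fun s hs => ?_, ?_, fun hu => ?_⟩
  · have hsq : π s ∈ (Sq : Subgroup (G ⧸ Zc)) := hSq ▸ mem_map_of_mem π hs
    have hcy : ⁅s, y⁆ ∈ Zc := by
      rw [← hπker, MonoidHom.mem_ker, map_commutatorElement, commutatorElement_eq_one_iff_mul_comm]
      exact hv₀S _ hsq
    have hk : (s * t₀ * s⁻¹) * t₀⁻¹ ∈ C₁ := (hCmap _).1 (by
      simpa [map_mul, map_inv] using hts _ hsq)
    have hcc : ∀ a : G, a * ⁅s, y⁆ = ⁅s, y⁆ * a := fun a => Subgroup.mem_center_iff.1 hcy.2 a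
    have e1 : s * (t₀ * y * t₀⁻¹) * s⁻¹ = ⁅s, y⁆ * (t₀ * y * t₀⁻¹) := by
      calc s * (t₀ * y * t₀⁻¹) * s⁻¹
          = (s * t₀ * s⁻¹ * t₀⁻¹) * ((t₀ * ⁅s, y⁆) * y * t₀⁻¹) * (s * t₀ * s⁻¹ * t₀⁻¹)⁻¹ := by
            simp only [commutatorElement_def]; group
        _ = (s * t₀ * s⁻¹ * t₀⁻¹) * (⁅s, y⁆ * (t₀ * y * t₀⁻¹)) * (s * t₀ * s⁻¹ * t₀⁻¹)⁻¹ := by
            rw [hcc t₀]; group
        _ = ⁅s, y⁆ * (t₀ * y * t₀⁻¹) := by
            rw [← mem_centralizer_iff.1 hk _ (X₁.mul_mem (mem_sup_right hcy) hy'), mul_inv_cancel_right]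
    have e2 : s * u * s⁻¹ = u := by
      calc s * u * s⁻¹ = (⁅s, y⁆ * y) * (s * (t₀ * y * t₀⁻¹) * s⁻¹)⁻¹ := by
            rw [hudef]; simp only [commutatorElement_def]; group
        _ = (⁅s, y⁆ * u) * ⁅s, y⁆⁻¹ := by rw [e1, hudef]; group
        _ = u := by rw [← hcc u, mul_inv_cancel_right]
    calc s * u = (s * u * s⁻¹) * s := by group
      _ = u * s := by rw [e2]
  · rw [hudef, (show Commute y (t₀ * y * t₀⁻¹)⁻¹ from hX₁c y hy _ (X₁.inv_mem hy')).mul_pow, inv_pow, conj_pow,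
      Subgroup.mem_center_iff.1 (hX₁p y hy).2 t₀, mul_inv_cancel_right, mul_inv_cancel]
  · have e3 : π t₀ * π u = π u * π t₀ :=
      ((map_mul π t₀ u).symm.trans (congrArg π (mem_centralizer_iff.1 hu t₀ (mem_top _)))).trans (map_mul π u t₀)
    rw [hπu] at e3
    have h4 : π y * π y * (π y * π y) = 1 := by
      have e4 : (π y)⁻¹ * (π y)⁻¹ = π y * π y := by
        calc (π y)⁻¹ * (π y)⁻¹ = (π t₀ * π y * (π t₀)⁻¹) * (π t₀ * π y * (π t₀)⁻¹) := by rw [hv₀.2]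
          _ = π t₀ * (π y * π y) * (π t₀)⁻¹ := by group
          _ = π y * π y := by rw [e3, mul_inv_cancel_right]
      conv_lhs => arg 1; rw [← e4]
      group
    refine hv₀1 (orderOf_eq_one_iff.1 (Nat.eq_one_of_dvd_coprimes
      (((Nat.coprime_primes Nat.prime_two (Fact.out : p.Prime)).2 hp2.symm).pow_left 2)
      (orderOf_dvd_of_pow_eq_one ?_) (orderOf_dvd_of_pow_eq_one (c.expV _ hv₀.1))))
    rw [show (2 : ℕ) ^ 2 = 4 from rfl, pow_succ, pow_succ, pow_succ, pow_one, mul_assoc (π y * π y)]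
    exact h4

end Cfsg.Agent.H73.Focal
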