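import Cfsg.Agent.H73.Focal.Basic
import Cfsg.Agent.H73.Focal.Sylow
import Mathlib

/-! Splitting the focal contribution of the normaliser of a subgroup centralised by a Sylow subgroup. -/

set_option autoImplicit false

namespace Cfsg.Agent.H73.Focal

open Subgroup
open scoped commutatorElement

variable {G : Type*} [Group G] [Finite G] {p : ℕ} [Fact p.Prime]

/-- `P ∩ N'` for `P ≤ C ⊴ N`. -/
theorem inf_commutator_le_split (P : Sylow p G) {C N : Subgroup G} (hPC : (P : Subgroup G) ≤ C) (hCN : C ≤ N)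
    (hn : N ≤ normalizer (C : Set G)) :
    (P : Subgroup G) ⊓ ⁅N, N⁆ ≤ ((P : Subgroup G) ⊓ ⁅C, C⁆) ⊔
      ((P : Subgroup G) ⊓ ⁅normalizer ((P : Subgroup G) : Set G), normalizer ((P : Subgroup G) : Set G)⁆) := by
  classical
  let D : Subgroup G :=
    { carrier := {g | ∃ h : g ∈ C, (orderOf (Abelianization.of (⟨g, h⟩ : ↥C))).Coprime p}
      one_mem' := ⟨one_mem _, by
        rw [show (⟨1, one_mem _⟩ : ↥C) = 1 from rfl, map_one, orderOf_one]; exact Nat.coprime_one_left p⟩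
      mul_mem' := by
        rintro a b ⟨ha, oa⟩ ⟨hb, ob⟩
        refine ⟨mul_mem ha hb, Nat.Coprime.coprime_dvd_left ?_ (oa.mul_left ob)⟩
        rw [show (⟨a * b, mul_mem ha hb⟩ : ↥C) = ⟨a, ha⟩ * ⟨b, hb⟩ from rfl, map_mul]
        exact (Commute.all _ _).orderOf_mul_dvd_mul_orderOf
      inv_mem' := by
        rintro a ⟨ha, oa⟩
        refine ⟨inv_mem ha, ?_⟩
        rw [show (⟨a⁻¹, inv_mem ha⟩ : ↥C) = ⟨a, ha⟩⁻¹ from rfl, map_inv, orderOf_inv]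
        exact oa }
  have hDC : D ≤ C := fun g hg => hg.1
  have hND : N ≤ normalizer (D : Set G) := fun g hg => mem_normalizer_iff_map_conj_eq.2
    (eq_of_le_of_card_ge (by
      rintro _ ⟨d, ⟨hd, od⟩, rfl⟩
      let θ : ↥C →* ↥C := MonoidHom.mk'
        (fun c => ⟨g * c * g⁻¹, (mem_normalizer_iff.1 (hn hg) _).1 c.2⟩)
        fun a b => Subtype.ext (by show g * ((a : G) * b) * g⁻¹ = g * a * g⁻¹ * (g * b * g⁻¹); group)
      refine ⟨(mem_normalizer_iff.1 (hn hg) _).1 hd, Nat.Coprime.coprime_dvd_left ?_ od⟩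
      show orderOf (Abelianization.of (θ ⟨d, hd⟩)) ∣ _
      rw [← Abelianization.map_of θ]
      exact orderOf_map_dvd _ _) (card_map_of_injective (MulAut.conj g).injective).ge)
  have hDcop : ∀ x ∈ C, (orderOf x).Coprime p → x ∈ D := fun x hx hxp =>
    ⟨hx, Nat.Coprime.coprime_dvd_left ((orderOf_map_dvd _ _).trans (by rw [Subgroup.orderOf_mk])) hxp⟩
  have hDP : ∀ y ∈ D, y ∈ (P : Subgroup G) → y ∈ ⁅C, C⁆ := by
    rintro y ⟨hy, oy⟩ hyP
    obtain ⟨k, hk⟩ := P.2 ⟨y, hyP⟩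
    have h1 : Abelianization.of (⟨y, hy⟩ : ↥C) = 1 :=
      orderOf_eq_one_iff.1 (Nat.eq_one_of_dvd_coprimes (oy.pow_right k) dvd_rfl
        (orderOf_dvd_of_pow_eq_one (by
          rw [← map_pow, show (⟨y, hy⟩ : ↥C) ^ p ^ k = 1 from Subtype.ext (congrArg Subtype.val hk :), map_one])))
    rw [← map_subtype_commutator]
    exact ⟨⟨y, hy⟩, (QuotientGroup.eq_one_iff _).1 h1, rfl⟩
  have hCDP : C ≤ D ⊔ (P : Subgroup G) := le_of_sylow_of_coprime (p := p) hPC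
    (fun hd => P.not_dvd_index (hd.trans (Subgroup.relIndex_dvd_index_of_le hPC))) le_sup_right
    fun x hx hxp => mem_sup_left (hDcop x hx hxp)
  have hsyl : SylIn p (P : Subgroup G) C :=
    ⟨hPC, P.2, fun R _ hR hle => P.is_maximal' hR hle⟩
  set L := normalizer ((P : Subgroup G) : Set G) ⊓ N
  have hfr : ∀ g ∈ N, ∃ d ∈ D, ∃ l ∈ L, g = d * l := by
    intro g hg
    obtain ⟨x, hx, hxg⟩ := hsyl.frattini' (hn hg)
    have hx' : x⁻¹ ∈ D ⊔ (P : Subgroup G) := hCDP (inv_mem hx)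
    rw [← SetLike.mem_coe, coe_mul_of_right_le_normalizer_left _ _ ((hPC.trans hCN).trans hND)] at hx'
    obtain ⟨d, hd, y, hy, e⟩ := hx'
    refine ⟨d, hd, y * (x * g), ⟨mul_mem (le_normalizer hy) hxg, N.mul_mem (hCN (hPC hy)) (N.mul_mem (hCN hx) hg)⟩, ?_⟩
    have e' : d * y = x⁻¹ := e
    rw [← mul_assoc, e', inv_mul_cancel_left]
  have hLN : L ≤ N := inf_le_right
  have hcomm : ⁅N, N⁆ ≤ D ⊔ ⁅L, L⁆ := by
    refine commutator_le.2 fun a ha b hb => ?_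
    obtain ⟨d₁, hd₁, m₁, hm₁, rfl⟩ := hfr a ha
    obtain ⟨d₂, hd₂, m₂, hm₂, rfl⟩ := hfr b hb
    have hDN : ∀ g ∈ N, ∀ d ∈ D, ⁅g, d⁆ ∈ D := fun g hg d hd => by
      rw [commutatorElement_def]; exact mul_mem ((mem_normalizer_iff.1 (hND hg) d).1 hd) (inv_mem hd)
    rw [show ⁅d₁ * m₁, d₂ * m₂⁆ = d₁ * (⁅m₁, d₂⁆ * (d₂ * ⁅m₁, m₂⁆ * d₂⁻¹)) * d₁⁻¹ * ⁅d₁, d₂ * m₂⁆ by
      simp only [commutatorElement_def]; group]
    have h1 : ⁅d₁, d₂ * m₂⁆ ∈ D := by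
      rw [← commutatorElement_inv]; exact inv_mem (hDN _ hb _ hd₁)
    have e1 : ∀ {w : G}, w ∈ D → w ∈ D ⊔ ⁅L, L⁆ := fun {w} hw => mem_sup_left hw
    exact mul_mem (mul_mem (mul_mem (e1 hd₁) (mul_mem (e1 (hDN _ (hLN hm₁) _ hd₂))
      (mul_mem (mul_mem (e1 hd₂) (mem_sup_right (commutator_mem_commutator hm₁ hm₂))) (inv_mem (e1 hd₂)))))
      (inv_mem (e1 hd₁))) (e1 h1)
  intro x hx
  obtain ⟨hxP, hxN⟩ := mem_inf.1 hx
  have hx' : x ∈ D ⊔ ⁅L, L⁆ := hcomm hxN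
  have hL' : ⁅L, L⁆ ≤ L := commutator_le.2 fun a ha b hb => by
    rw [commutatorElement_def]; exact mul_mem (mul_mem (mul_mem ha hb) (inv_mem ha)) (inv_mem hb)
  rw [← SetLike.mem_coe, coe_mul_of_right_le_normalizer_left _ _ ((hL'.trans hLN).trans hND)] at hx'
  obtain ⟨d, hd, n, hn', e⟩ := hx'
  have e : d * n = x := e
  have hdP : d ∈ normalizer ((P : Subgroup G) : Set G) := by
    rw [show d = x * n⁻¹ by rw [← e, mul_inv_cancel_right]]
    exact mul_mem (le_normalizer hxP) (inv_mem (hL' hn').1)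
  have hn0 : orderOf d ≠ 0 := (orderOf_pos d).ne'
  set A := p ^ (orderOf d).factorization p with hA
  set B := orderOf d / A with hB
  have hAB : A * B = orderOf d := Nat.ordProj_mul_ordCompl_eq_self _ _
  obtain ⟨α, β, hab⟩ := Nat.isCoprime_iff_coprime.2
    ((Nat.coprime_ordCompl (Fact.out : p.Prime) hn0).pow_left ((orderOf d).factorization p)).symm
  set u := (d ^ B) ^ α with hu
  set w := (d ^ A) ^ β with hw
  have hdec : d = u * w := by
    rw [hu, hw, ← zpow_natCast d B, ← zpow_natCast d A, ← zpow_mul, ← zpow_mul, ← zpow_add,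
      mul_comm (B : ℤ), mul_comm (A : ℤ)]
    conv_lhs => rw [← zpow_one d]
    exact congrArg (d ^ ·) hab.symm
  have huA : u ^ A = 1 := by
    rw [hu, ← zpow_natCast, ← zpow_mul, mul_comm, zpow_mul, zpow_natCast, ← pow_mul, mul_comm B, hAB,
      pow_orderOf_eq_one, one_zpow]
  have hwB : w ^ B = 1 := by
    rw [hw, ← zpow_natCast, ← zpow_mul, mul_comm, zpow_mul, zpow_natCast, ← pow_mul, hAB,
      pow_orderOf_eq_one, one_zpow]
  have huN : u ∈ normalizer ((P : Subgroup G) : Set G) := zpow_mem (pow_mem hdP _) _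
  have huP : u ∈ (P : Subgroup G) := by
    have hp' : IsPGroup p ↥((P : Subgroup G) ⊔ zpowers u) := IsPGroup.to_sup_of_normal_left' P.2
      (IsPGroup.of_card (n := (Nat.log p (orderOf u))) (by
        obtain ⟨k, -, hk⟩ := (Nat.dvd_prime_pow (Fact.out : p.Prime)).1 (orderOf_dvd_of_pow_eq_one huA)
        rw [Nat.card_zpowers, hk, Nat.log_pow (Fact.out : p.Prime).one_lt])) (zpowers_le.2 huN)
    exact (P.is_maximal' hp' le_sup_left) ▸ mem_sup_right (mem_zpowers u)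
  have huC : u ∈ ⁅C, C⁆ := hDP u (zpow_mem (pow_mem hd _) _) huP
  set Ln := normalizer ((P : Subgroup G) : Set G)
  set f := (Abelianization.of : ↥Ln →* Abelianization ↥Ln)
  have hwN : w ∈ Ln := zpow_mem (pow_mem hdP _) _
  have hnL : n ∈ ⁅Ln, Ln⁆ := commutator_mono inf_le_left inf_le_left hn'
  have hxN' : x ∈ Ln := le_normalizer hxP
  have hfn : f ⟨n, (hL' hn').1⟩ = 1 := by
    rw [← map_subtype_commutator] at hnL
    obtain ⟨y, hy, ey⟩ := hnL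
    exact (QuotientGroup.eq_one_iff _).2 ((Subtype.ext ey : y = ⟨n, (hL' hn').1⟩) ▸ hy)
  have hfeq : f ⟨x, hxN'⟩ = f ⟨u, huN⟩ * f ⟨w, hwN⟩ := by
    rw [← map_mul, show (⟨x, hxN'⟩ : ↥Ln) = ⟨u, huN⟩ * ⟨w, hwN⟩ * ⟨n, (hL' hn').1⟩ from
      Subtype.ext (by show x = u * w * n; rw [← hdec, e]), map_mul, hfn, mul_one]
  have hxu : x * u⁻¹ ∈ (P : Subgroup G) := mul_mem hxP (inv_mem huP)
  have hval : f ⟨x * u⁻¹, le_normalizer hxu⟩ = f ⟨w, hwN⟩ := by
    rw [show (⟨x * u⁻¹, le_normalizer hxu⟩ : ↥Ln) = ⟨x, hxN'⟩ * ⟨u, huN⟩⁻¹ from rfl, map_mul, map_inv, hfeq,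
      mul_comm (f ⟨u, huN⟩), mul_inv_cancel_right]
  have hone : f ⟨x * u⁻¹, le_normalizer hxu⟩ = 1 := by
    obtain ⟨k, hk⟩ := P.2 ⟨x * u⁻¹, hxu⟩
    refine orderOf_eq_one_iff.1 (Nat.eq_one_of_dvd_coprimes (a := p ^ k) (b := B) ?_
      (orderOf_dvd_of_pow_eq_one ?_) (orderOf_dvd_of_pow_eq_one ?_))
    · exact (Nat.coprime_ordCompl (Fact.out : p.Prime) hn0).pow_left k
    · rw [← map_pow, show (⟨x * u⁻¹, le_normalizer hxu⟩ : ↥Ln) ^ p ^ k = 1 from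
        Subtype.ext (congrArg Subtype.val hk :), map_one]
    · rw [hval, ← map_pow, show (⟨w, hwN⟩ : ↥Ln) ^ B = 1 from Subtype.ext hwB, map_one]
  have hxL : x * u⁻¹ ∈ ⁅Ln, Ln⁆ := by
    rw [← map_subtype_commutator]
    exact ⟨_, (QuotientGroup.eq_one_iff _).1 hone, rfl⟩
  rw [show x = (x * u⁻¹) * u by group]
  exact mul_mem (mem_sup_right ⟨hxu, hxL⟩) (mem_sup_left ⟨huP, huC⟩)

end Cfsg.Agent.H73.Focal
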